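import Mathlib

/-! Brauer-Feit (S4732), part 1: growth argument.
`CS ρ` = span of the matrix coefficients; `CoreBd P ρ r` : the identity of `ρ` is a trace from `1` to `P`
up to a `P`-endomorphism of rank at most `r`. -/

set_option autoImplicit false

namespace H29.BF

open TensorProduct

universe u v

section defs
variable {k : Type v} {G : Type u} [Field k] [Group G]

/-- span of the matrix coefficients -/
def CS {E : Type v} [AddCommGroup E] [Module k E] (ρ : Representation k G E) : Submodule k (G → k) :=
  Submodule.span k {f | ∃ (l : Module.Dual k E) (x : E), f = fun g => l (ρ g x)}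

/-- up to rank `r` the identity is a trace from `1` to `P` -/
def CoreBd (P : Subgroup G) [Fintype P] {E : Type v} [AddCommGroup E] [Module k E]
    (ρ : Representation k G E) (r : ℕ) : Prop :=
  ∃ π θ : Module.End k E, (∀ h ∈ P, ρ h * π = π * ρ h) ∧
    1 - π = ∑ h : P, ρ h * θ * ρ (h : G)⁻¹ ∧ Module.finrank k (LinearMap.range π) ≤ r

end defs

section basic
variable {k : Type v} {G : Type u} [Field k] [Group G]
variable {E : Type v} [AddCommGroup E] [Module k E] (ρ : Representation k G E)
variable {E' : Type v} [AddCommGroup E'] [Module k E'] (σ : Representation k G E')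

theorem mem_CS (l : Module.Dual k E) (x : E) : (fun g => l (ρ g x)) ∈ CS ρ :=
  Submodule.subset_span ⟨l, x, rfl⟩

theorem CS_mul_le : CS ρ * CS σ ≤ CS (ρ.tprod σ) := by
  unfold CS
  rw [Submodule.span_mul_span]
  apply Submodule.span_mono
  rintro f ⟨a, ⟨l, x, rfl⟩, b, ⟨m, y, rfl⟩, rfl⟩
  refine ⟨TensorProduct.lid k k ∘ₗ TensorProduct.map l m, x ⊗ₜ y, ?_⟩
  funext g
  simp

theorem CS_tprod_le [FiniteDimensional k E'] : CS (ρ.tprod σ) ≤ CS ρ * CS σ := by
  unfold CS
  rw [Submodule.span_le]
  rintro f ⟨l, z, rfl⟩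
  show (fun g => l ((ρ.tprod σ) g z)) ∈ CS ρ * CS σ
  induction z using TensorProduct.induction_on with
  | zero => simp only [map_zero]; exact Submodule.zero_mem _
  | add x y hx hy =>
    have : (fun g => l ((ρ.tprod σ) g (x + y))) =
        (fun g => l ((ρ.tprod σ) g x)) + fun g => l ((ρ.tprod σ) g y) := by
      funext g; simp
    rw [this]; exact Submodule.add_mem _ hx hy
  | tmul x y =>
    let b := Module.finBasis k E'
    have : (fun g => l ((ρ.tprod σ) g (x ⊗ₜ y))) =
        ∑ j, (fun g => (l ∘ₗ (TensorProduct.mk k E E').flip (b j)) (ρ g x)) *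
          (fun g => b.coord j (σ g y)) := by
      funext g
      rw [Representation.tprod_apply, TensorProduct.map_tmul, Finset.sum_apply]
      conv_lhs => rw [← b.sum_repr (σ g y)]
      rw [TensorProduct.tmul_sum, map_sum]
      refine Finset.sum_congr rfl fun j _ => ?_
      simp [mul_comm]
    rw [this]
    refine Submodule.sum_mem _ fun j _ => Submodule.mul_mem_mul ?_ ?_
    · exact mem_CS ρ _ x
    · exact mem_CS σ (b.coord j) y

theorem CS_tprod [FiniteDimensional k E'] : CS (ρ.tprod σ) = CS ρ * CS σ :=
  le_antisymm (CS_tprod_le ρ σ) (CS_mul_le ρ σ)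

variable {ρ σ}

theorem finrank_range_map [FiniteDimensional k E] [FiniteDimensional k E']
    (f : Module.End k E) (g : Module.End k E') :
    Module.finrank k (LinearMap.range (TensorProduct.map f g)) ≤
      Module.finrank k (LinearMap.range f) * Module.finrank k (LinearMap.range g) := by
  have h1 : TensorProduct.map f g =
      (TensorProduct.map (LinearMap.range f).subtype (LinearMap.range g).subtype) ∘ₗ
        TensorProduct.map f.rangeRestrict g.rangeRestrict := by
    rw [← TensorProduct.map_comp]
    rfl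
  rw [h1, ← Module.finrank_tensorProduct]
  refine le_trans (Submodule.finrank_mono (LinearMap.range_comp_le_range _ _)) ?_
  exact LinearMap.finrank_range_le _

theorem CoreBd.tprod {P : Subgroup G} [Fintype P] [FiniteDimensional k E] [FiniteDimensional k E']
    {r s : ℕ} (h : CoreBd P ρ r) (h' : CoreBd P σ s) : CoreBd P (ρ.tprod σ) (r * s) := by
  obtain ⟨π, θ, h1, h2, h3⟩ := h
  obtain ⟨π', θ', h1', h2', h3'⟩ := h'
  refine ⟨TensorProduct.map π π', TensorProduct.map θ 1 + TensorProduct.map π θ', ?_, ?_, ?_⟩
  · intro x hx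
    rw [Representation.tprod_apply]
    rw [← TensorProduct.map_mul, ← TensorProduct.map_mul, h1 x hx, h1' x hx]
  · have e1 : (1 : Module.End k (E ⊗[k] E')) - TensorProduct.map π π' =
        TensorProduct.map (1 - π) 1 + TensorProduct.map π (1 - π') := by
      ext x y
      simp [TensorProduct.sub_tmul, TensorProduct.tmul_sub]
    have e2 : TensorProduct.map (1 - π) (1 : Module.End k E') =
        ∑ h : P, (ρ.tprod σ) h * TensorProduct.map θ 1 * (ρ.tprod σ) (h : G)⁻¹ := by
      rw [h2]
      have : ∀ h : P, (ρ.tprod σ) h * TensorProduct.map θ 1 * (ρ.tprod σ) (h : G)⁻¹ =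
          TensorProduct.map (ρ h * θ * ρ (h : G)⁻¹) (1 : Module.End k E') := by
        intro h
        rw [Representation.tprod_apply, Representation.tprod_apply, ← TensorProduct.map_mul,
          ← TensorProduct.map_mul]
        congr 1
        rw [mul_one, ← map_mul, mul_inv_cancel, map_one]
      rw [Finset.sum_congr rfl fun h _ => this h]
      ext x y
      simp [LinearMap.sum_apply, TensorProduct.sum_tmul]
    have e3 : TensorProduct.map π (1 - π') =
        ∑ h : P, (ρ.tprod σ) h * TensorProduct.map π θ' * (ρ.tprod σ) (h : G)⁻¹ := by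
      rw [h2']
      have : ∀ h : P, (ρ.tprod σ) h * TensorProduct.map π θ' * (ρ.tprod σ) (h : G)⁻¹ =
          TensorProduct.map π (σ h * θ' * σ (h : G)⁻¹) := by
        intro h
        rw [Representation.tprod_apply, Representation.tprod_apply, ← TensorProduct.map_mul,
          ← TensorProduct.map_mul]
        congr 1
        rw [h1 h h.2, mul_assoc, ← map_mul, mul_inv_cancel, map_one, mul_one]
      rw [Finset.sum_congr rfl fun h _ => this h]
      ext x y
      simp [LinearMap.sum_apply, TensorProduct.tmul_sum]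
    rw [e1, e2, e3, ← Finset.sum_add_distrib]
    refine Finset.sum_congr rfl fun h _ => ?_
    rw [mul_add, add_mul]
  · exact (finrank_range_map _ _).trans (Nat.mul_le_mul h3 h3')

/-- the base of the growth argument -/
theorem CoreBd.base {P : Subgroup G} [Fintype P] [FiniteDimensional k E]
    (h : ∃ f ∈ CS ρ, ∑ h : P, f h ≠ 0) : CoreBd P ρ (Module.finrank k E - 1) := by
  obtain ⟨l, u, hlu⟩ : ∃ (l : Module.Dual k E) (u : E), ∑ h : P, l (ρ h u) ≠ 0 := by
    by_contra hcon
    push Not at hcon
    obtain ⟨f, hf, hf'⟩ := h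
    apply hf'
    unfold CS at hf
    induction hf using Submodule.span_induction with
    | mem f hf => obtain ⟨l, u, rfl⟩ := hf; exact hcon l u
    | zero => simp
    | add x y _ _ hx hy => 
      by_contra hne
      apply hne
      by_cases hx0 : ∑ h : P, x h = 0
      · by_cases hy0 : ∑ h : P, y h = 0
        · simp only [Pi.add_apply]; rw [Finset.sum_add_distrib, hx0, hy0, add_zero]
        · exact absurd (hy hy0) hy0
      · exact absurd (hx hx0) hx0
    | smul a x _ hx =>
      by_contra hne
      apply hne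
      by_cases hx0 : ∑ h : P, x h = 0
      · simp only [Pi.smul_apply, smul_eq_mul]; rw [← Finset.mul_sum, hx0, mul_zero]
      · exact absurd (hx hx0) hx0
  set w : E := ∑ h : P, ρ h u with hw
  set c : k := l w with hc
  have hc0 : c ≠ 0 := by rw [hc, hw, map_sum]; exact hlu
  have hw0 : w ≠ 0 := by rintro h0; rw [h0, map_zero] at hc; exact hc0 hc
  have hwfix : ∀ h ∈ P, ρ h w = w := by
    intro h hh
    rw [hw, map_sum]
    refine Fintype.sum_equiv (Equiv.mulLeft (⟨h, hh⟩ : P)) _ _ fun x => ?_
    simp
  let θ : Module.End k E := c⁻¹ • l.smulRight u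
  let T : Module.End k E := ∑ h : P, ρ h * θ * ρ (h : G)⁻¹
  have hTw : T w = w := by
    show (∑ h : P, ρ h * θ * ρ (h : G)⁻¹) w = w
    rw [LinearMap.sum_apply]
    have : ∀ h : P, (ρ h * θ * ρ (h : G)⁻¹) w = ρ h u := by
      intro h
      rw [Module.End.mul_apply, Module.End.mul_apply, hwfix _ (P.inv_mem h.2)]
      show ρ h (c⁻¹ • (l w • u)) = _
      rw [← hc, smul_smul, inv_mul_cancel₀ hc0, one_smul]
    rw [Finset.sum_congr rfl fun h _ => this h]
  refine ⟨1 - T, θ, ?_, ?_, ?_⟩
  · intro x hx
    have : ρ x * T = T * ρ x := by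
      show ρ x * (∑ h : P, ρ h * θ * ρ (h : G)⁻¹) = (∑ h : P, ρ h * θ * ρ (h : G)⁻¹) * ρ x
      rw [Finset.mul_sum, Finset.sum_mul]
      refine Fintype.sum_equiv (Equiv.mulLeft (⟨x, hx⟩ : P)) _ _ fun y => ?_
      simp only [Equiv.coe_mulLeft, Subgroup.coe_mul, mul_inv_rev, map_mul, mul_assoc]
      congr 3
      rw [← map_mul, inv_mul_cancel, map_one, mul_one]
    rw [mul_sub, sub_mul, this, mul_one, one_mul]
  · rw [sub_sub_cancel]
  · have h1 : (LinearMap.ker (1 - T)) ≠ ⊥ := by
      rw [Submodule.ne_bot_iff]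
      exact ⟨w, by simp [hTw], hw0⟩
    have h2 := LinearMap.finrank_range_add_finrank_ker (1 - T)
    have h3 : 0 < Module.finrank k (LinearMap.ker (1 - T)) := by
      rw [Module.finrank_pos_iff]
      exact Submodule.nontrivial_iff_ne_bot.mpr h1
    omega

end basic

end H29.BF
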