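import Cfsg.Agent.Lib.H29.BF1

/-! Brauer-Feit (S4732), part 2: tensor powers, dimension of the space of coefficients, the element of
nonzero augmentation in a small left ideal. -/

set_option autoImplicit false

namespace H29.BF

open TensorProduct

universe u v

section pow
variable {k : Type v} {G : Type u} [Field k] [Group G]

theorem exists_tpow {E : Type v} [AddCommGroup E] [Module k E] [FiniteDimensional k E]
    (ρ : Representation k G E) (t : ℕ) :
    ∃ (X : Type v) (_ : AddCommGroup X) (_ : Module k X) (_ : FiniteDimensional k X)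
      (σ : Representation k G X), Module.finrank k X = (Module.finrank k E) ^ t ∧
      CS σ = (CS ρ) ^ t ∧
      ∀ (P : Subgroup G) [Fintype P] (r : ℕ), CoreBd P ρ r → CoreBd P σ (r ^ t) := by
  induction t with
  | zero =>
    refine ⟨k, inferInstance, inferInstance, inferInstance, 1, by simp, ?_, ?_⟩
    · rw [pow_zero, Submodule.one_eq_span]
      apply le_antisymm
      · unfold CS
        rw [Submodule.span_le]
        rintro f ⟨l, x, rfl⟩
        have : (fun g : G => l ((1 : Representation k G k) g x)) = (l x) • (1 : G → k) := by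
          funext g; simp
        rw [this]
        exact Submodule.smul_mem _ _ (Submodule.mem_span_singleton_self _)
      · rw [Submodule.span_singleton_le_iff_mem]
        have : (1 : G → k) = (fun g : G => (LinearMap.id : k →ₗ[k] k) ((1 : Representation k G k) g 1)) := by
          funext g; simp
        rw [this]
        exact mem_CS _ _ _
    · intro P _ r _
      refine ⟨1, 0, fun h _ => by rw [mul_one, one_mul], by simp, ?_⟩
      exact (LinearMap.finrank_range_le _).trans (by simp)
  | succ t ih =>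
    obtain ⟨X, i1, i2, i3, σ, h1, h2, h3⟩ := ih
    refine ⟨X ⊗[k] E, inferInstance, inferInstance, inferInstance, σ.tprod ρ, ?_, ?_, ?_⟩
    · rw [Module.finrank_tensorProduct, h1, pow_succ]
    · rw [CS_tprod, h2, pow_succ]
    · intro P _ r hr
      rw [pow_succ]
      exact (h3 P r hr).tprod hr

/-- dimension of powers of a space of functions -/
theorem finrank_pow_le {ι : Type*} [Fintype ι] {X : Type*} (c : ι → (X → k)) (F : Submodule k (X → k))
    (hF : F ≤ Submodule.span k (Set.range c)) (t : ℕ) :
    Module.finrank k (F ^ t : Submodule k (X → k)) ≤ (t + 1) ^ Fintype.card ι := by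
  classical
  have key : ∀ t : ℕ, F ^ t ≤ Submodule.span k
      (Set.range (fun e : ι → Fin (t + 1) => ∏ i, c i ^ (e i : ℕ))) := by
    intro t
    induction t with
    | zero =>
      rw [pow_zero, Submodule.one_eq_span, Submodule.span_singleton_le_iff_mem]
      apply Submodule.subset_span
      exact ⟨fun _ => 0, by simp⟩
    | succ t ih =>
      rw [pow_succ]
      refine (mul_le_mul' ih hF).trans ?_
      rw [Submodule.span_mul_span]
      apply Submodule.span_mono
      rintro f ⟨a, ⟨e, rfl⟩, b, ⟨j, rfl⟩, rfl⟩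
      refine ⟨fun i => if i = j then ⟨e i + 1, by have := (e i).2; omega⟩ else
        ⟨e i, by have := (e i).2; omega⟩, ?_⟩
      show (∏ i, c i ^ ((if i = j then (⟨e i + 1, _⟩ : Fin (t + 2)) else ⟨e i, _⟩ : Fin (t + 2)) : ℕ)) =
        (∏ i, c i ^ (e i : ℕ)) * c j
      have : ∀ i, c i ^ ((if i = j then (⟨e i + 1, by have := (e i).2; omega⟩ : Fin (t + 2)) else
          ⟨e i, by have := (e i).2; omega⟩ : Fin (t + 2)) : ℕ) =
          c i ^ (e i : ℕ) * (if i = j then c i else 1) := by
        intro i
        by_cases hi : i = j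
        · simp only [if_pos hi]; rw [pow_succ]
        · simp only [if_neg hi, mul_one]
      rw [Finset.prod_congr rfl fun i _ => this i, Finset.prod_mul_distrib]
      congr 1
      rw [Finset.prod_ite_eq' Finset.univ j]
      simp
  have hfin : Module.Finite k (Submodule.span k
      (Set.range (fun e : ι → Fin (t + 1) => ∏ i, c i ^ (e i : ℕ)))) :=
    FiniteDimensional.span_of_finite k (Set.finite_range _)
  refine (Submodule.finrank_mono (key t)).trans ?_
  refine (finrank_range_le_card _).trans ?_
  simp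

/-- `CS` of an `n`-dimensional representation is spanned by `n²` functions -/
theorem CS_le_span {E : Type v} [AddCommGroup E] [Module k E] [FiniteDimensional k E]
    (ρ : Representation k G E) :
    ∃ c : (Fin (Module.finrank k E) × Fin (Module.finrank k E)) → (G → k),
      CS ρ ≤ Submodule.span k (Set.range c) := by
  let b := Module.finBasis k E
  refine ⟨fun ij g => b.coord ij.1 (ρ g (b ij.2)), ?_⟩
  unfold CS
  rw [Submodule.span_le]
  rintro f ⟨l, x, rfl⟩
  have : (fun g => l (ρ g x)) = ∑ i, ∑ j, (l (b i) * b.coord j x) •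
      (fun g => b.coord i (ρ g (b j))) := by
    funext g
    simp only [Finset.sum_apply, Pi.smul_apply, smul_eq_mul]
    conv_lhs => rw [← b.sum_repr (ρ g x), map_sum]
    refine Finset.sum_congr rfl fun i _ => ?_
    rw [map_smul, smul_eq_mul]
    have h2 : b.repr (ρ g x) i = ∑ j, b.coord j x * b.coord i (ρ g (b j)) := by
      conv_lhs => rw [← b.sum_repr x, map_sum, map_sum, Finset.sum_apply']
      refine Finset.sum_congr rfl fun j _ => ?_
      simp
    rw [h2, Finset.sum_mul]
    refine Finset.sum_congr rfl fun j _ => ?_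
    ring
  rw [this]
  refine Submodule.sum_mem _ fun i _ => Submodule.sum_mem _ fun j _ => Submodule.smul_mem _ _ ?_
  exact Submodule.subset_span ⟨(i, j), rfl⟩

end pow

section good
variable {k : Type v} {G : Type u} [Field k] [Group G] {p : ℕ} [Fact p.Prime] [CharP k p]

/-- a coefficient function separating `h ≠ 1` from `1` -/
theorem exists_sep {E : Type v} [AddCommGroup E] [Module k E] (ρ : Representation k G E)
    {h : G} (hh : ρ h ≠ 1) {m : ℕ} (hm : h ^ (p ^ m) = 1) : ∃ f ∈ CS ρ, f h = 0 ∧ f 1 ≠ 0 := by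
  have : CharP (Module.End k E) p := by
    have hne : Nontrivial (Module.End k E) := ⟨ρ h, 1, hh⟩
    exact charP_of_injective_algebraMap (algebraMap k (Module.End k E)).injective p
  have hnil : (ρ h - 1) ^ (p ^ m) = 0 := by
    rw [sub_pow_char_pow_of_commute p m (Commute.one_right _), one_pow, ← map_pow, hm, map_one, sub_self]
  have hker : LinearMap.ker (ρ h - 1) ≠ ⊥ := by
    intro hb
    have hinj : Function.Injective (ρ h - 1 : Module.End k E) := LinearMap.ker_eq_bot.mp hb
    have h2 : Function.Injective ((ρ h - 1) ^ (p ^ m) : Module.End k E) := by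
      rw [Module.End.coe_pow]; exact hinj.iterate _
    rw [hnil] at h2
    apply hh
    ext x
    exact h2 (by simp)
  obtain ⟨w, hw, hw0⟩ := (Submodule.ne_bot_iff _).mp hker
  have hwf : ρ h w = w := by
    have : (ρ h - 1) w = 0 := hw
    simpa [sub_eq_zero] using this
  obtain ⟨x, hx⟩ : ∃ x, ρ h x ≠ x := by
    by_contra hcon
    push Not at hcon
    exact hh (LinearMap.ext hcon)
  obtain ⟨m1, hm1⟩ := Module.Projective.exists_dual_eq_one k hw0
  obtain ⟨m2, hm2⟩ := Module.Projective.exists_dual_eq_one k (sub_ne_zero.mpr hx)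
  refine ⟨(fun g => m2 (ρ g x)) - (m2 (ρ h x)) • (fun g => m1 (ρ g w)),
    Submodule.sub_mem _ (mem_CS _ _ _) (Submodule.smul_mem _ _ (mem_CS _ _ _)), ?_, ?_⟩
  · simp only [Pi.sub_apply, Pi.smul_apply, hwf, hm1, smul_eq_mul, mul_one, sub_self]
  · simp only [Pi.sub_apply, Pi.smul_apply, map_one, Module.End.one_apply, hm1, smul_eq_mul, mul_one]
    intro h0
    rw [map_sub] at hm2
    have : m2 (ρ h x) - m2 x = 0 := by
      rw [sub_eq_zero] at h0 ⊢
      exact h0.symm
    rw [this] at hm2
    exact zero_ne_one hm2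

/-- an element with nonzero sum over a `p`-subgroup in a bounded power of `CS` -/
theorem exists_good {E : Type v} [AddCommGroup E] [Module k E] (ρ : Representation k G E)
    (hρ : Function.Injective ρ) (P : Subgroup G) [Fintype P] {m : ℕ} (hP : Nat.card P = p ^ m) :
    ∃ f ∈ (CS ρ) ^ (p ^ m - 1), ∑ h : P, f h ≠ 0 := by
  classical
  have h1 : ∀ h : P, h ≠ 1 → ∃ f ∈ CS ρ, f h = 0 ∧ f 1 ≠ 0 := by
    intro h hh
    refine exists_sep (p := p) ρ (m := m) (fun h0 => hh ?_) ?_
    · have : ρ (h : G) = ρ 1 := by rw [h0, map_one]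
      exact Subtype.ext (hρ this)
    · have : h ^ (p ^ m) = 1 := by rw [← hP]; exact pow_card_eq_one'
      exact_mod_cast congrArg Subtype.val this
  choose! F hF1 hF2 hF3 using h1
  set S : Finset P := Finset.univ.erase 1 with hS
  have hcard : S.card = p ^ m - 1 := by
    rw [hS, Finset.card_erase_of_mem (Finset.mem_univ _), Finset.card_univ, ← Nat.card_eq_fintype_card, hP]
  have hprod : ∀ T : Finset P, (∀ h ∈ T, h ≠ 1) → ∏ h ∈ T, F h ∈ (CS ρ) ^ T.card := by
    intro T
    induction T using Finset.induction_on with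
    | empty =>
      intro _
      rw [Finset.prod_empty, Finset.card_empty, pow_zero]
      exact Submodule.mem_one.mpr ⟨1, by simp⟩
    | insert a T ha ih =>
      intro hT
      rw [Finset.prod_insert ha, Finset.card_insert_of_notMem ha, pow_succ, mul_comm (F a)]
      exact Submodule.mul_mem_mul (ih fun h hh => hT h (Finset.mem_insert_of_mem hh))
        (hF1 a (hT a (Finset.mem_insert_self _ _)))
  refine ⟨∏ h ∈ S, F h, ?_, ?_⟩
  · rw [← hcard]
    exact hprod S fun h hh => Finset.ne_of_mem_erase hh
  · rw [Finset.sum_eq_single (1 : P)]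
    · rw [Finset.prod_apply, Finset.prod_ne_zero_iff]
      intro h hh
      exact hF3 h (Finset.ne_of_mem_erase hh)
    · intro h _ hh
      rw [Finset.prod_apply, Finset.prod_eq_zero (i := h)]
      · rw [hS]; exact Finset.mem_erase.mpr ⟨hh, Finset.mem_univ _⟩
      · exact hF2 h hh
    · intro h; exact absurd (Finset.mem_univ _) h

end good

section ideal
variable {k : Type v} {G : Type u} [Field k] [Group G] [Finite G]

/-- the augmentation -/
noncomputable def aug (k : Type v) (G : Type u) [CommRing k] [Group G] : MonoidAlgebra k G →ₐ[k] k :=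
  MonoidAlgebra.lift k k G 1

theorem aug_single {k : Type v} {G : Type u} [CommRing k] [Group G] (g : G) (r : k) :
    aug k G (MonoidAlgebra.single g r) = r := by
  unfold aug
  rw [MonoidAlgebra.lift_single]
  simp

theorem sum_complement {M : Type*} [AddCommMonoid M] [Fintype G] {S : Set G} {P : Subgroup G} [Fintype P]
    (hS : Subgroup.IsComplement S (P : Set G)) (f : G → M) :
    ∃ _ : Fintype S, ∑ g, f g = ∑ s : S, ∑ h : P, f (s * h) := by
  classical
  let _ : Fintype S := Fintype.ofFinite S
  refine ⟨inferInstance, ?_⟩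
  rw [← Fintype.sum_prod_type' (f := fun (s : S) (h : P) => f (s * h))]
  exact (Fintype.sum_bijective (fun x : S × P => (x.1 : G) * x.2) hS _ _ fun x => rfl).symm

theorem exists_ideal {P : Subgroup G} [Fintype P] {E : Type v} [AddCommGroup E] [Module k E]
    [FiniteDimensional k E] {σ : Representation k G E} {r : ℕ} (hcore : CoreBd P σ r)
    (hP : (P.index : k) ≠ 0) (hlt : r * Module.finrank k (CS σ) < Module.finrank k E) :
    ∃ I : Submodule k (MonoidAlgebra k G), (∀ (g : G), ∀ y ∈ I, MonoidAlgebra.single g 1 * y ∈ I) ∧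
      Module.finrank k I ≤ (Module.finrank k E) ^ 2 ∧ ∃ a ∈ I, aug k G a ≠ 0 := by
  classical
  have := Fintype.ofFinite G
  obtain ⟨π, θ, hπ1, hπ2, hπ3⟩ := hcore
  -- a vector `x ≠ 0` with `π (g x) = 0` for all `g`
  obtain ⟨x, hx0, hx⟩ : ∃ x : E, x ≠ 0 ∧ ∀ g, π (σ g x) = 0 := by
    let b := Module.finBasis k (LinearMap.range π)
    have : Module.Finite k (CS σ) := inferInstance
    let Φ : E →ₗ[k] (Fin (Module.finrank k (LinearMap.range π)) → CS σ) :=
      { toFun := fun x i => ⟨fun g => (b.coord i ∘ₗ π.rangeRestrict) (σ g x), mem_CS _ _ _⟩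
        map_add' := fun x y => by
          funext i; apply Subtype.ext; funext g; simp
        map_smul' := fun c x => by
          funext i; apply Subtype.ext; funext g; simp }
    have hker : LinearMap.ker Φ ≠ ⊥ := by
      apply LinearMap.ker_ne_bot_of_finrank_lt
      rw [Module.finrank_pi_fintype]
      simp only [Finset.sum_const, Finset.card_univ, Fintype.card_fin, smul_eq_mul]
      exact lt_of_le_of_lt (Nat.mul_le_mul_right _ hπ3) hlt
    obtain ⟨x, hx, hx0⟩ := (Submodule.ne_bot_iff _).mp hker
    refine ⟨x, hx0, fun g => ?_⟩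
    have h1 : ∀ i, b.coord i (π.rangeRestrict (σ g x)) = 0 := by
      intro i
      have h2 : Φ x i = 0 := by rw [LinearMap.mem_ker] at hx; rw [hx]; rfl
      exact congrFun (congrArg Subtype.val h2) g
    have h3 : π.rangeRestrict (σ g x) = 0 := b.forall_coord_eq_zero_iff.mp h1
    exact congrArg Subtype.val h3
  obtain ⟨z, hz⟩ := Module.Projective.exists_dual_eq_one k hx0
  let α : Module.End k E →ₗ[k] MonoidAlgebra k G :=
    ∑ g : G, (LinearMap.toSpanSingleton k (MonoidAlgebra k G) (MonoidAlgebra.single g 1)) ∘ₗ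
      (z ∘ₗ (LinearMap.applyₗ (σ g x)) ∘ₗ LinearMap.mulLeft k (σ g⁻¹))
  have hα : ∀ ψ : Module.End k E, α ψ = ∑ g : G, z (σ g⁻¹ (ψ (σ g x))) • MonoidAlgebra.single g (1 : k) := by
    intro ψ
    simp only [α, LinearMap.sum_apply]
    rfl
  refine ⟨LinearMap.range α, ?_, ?_, ?_⟩
  · rintro h _ ⟨ψ, rfl⟩
    refine ⟨σ h * ψ * σ h⁻¹, ?_⟩
    rw [hα, hα, Finset.mul_sum]
    symm
    refine Fintype.sum_equiv (Equiv.mulLeft h) _ _ fun g => ?_
    rw [mul_smul_comm, MonoidAlgebra.single_mul_single]
    simp only [Equiv.coe_mulLeft, mul_one, mul_inv_rev]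
    congr 2
    simp only [map_mul, Module.End.mul_apply]
    have e1 : σ h⁻¹ (σ h (σ g x)) = σ g x := by
      rw [← Module.End.mul_apply, ← map_mul]; simp
    have e2 : ∀ y, σ h⁻¹ (σ h y) = y := by
      intro y; rw [← Module.End.mul_apply, ← map_mul]; simp
    rw [e1, e2]
  · refine (LinearMap.finrank_range_le _).trans ?_
    rw [Module.finrank_linearMap, sq]
  · refine ⟨α θ, ⟨θ, rfl⟩, ?_⟩
    rw [hα, map_sum]
    have h1 : ∀ g : G, aug k G (z (σ g⁻¹ (θ (σ g x))) • MonoidAlgebra.single g (1 : k)) =
        z (σ g⁻¹ (θ (σ g x))) := by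
      intro g
      rw [map_smul, aug_single, smul_eq_mul, mul_one]
    rw [Finset.sum_congr rfl fun g _ => h1 g, ← map_sum]
    have h2 : ∑ g : G, σ g⁻¹ (θ (σ g x)) = (P.index : k) • x := by
      rw [← Equiv.sum_comp (Equiv.inv G)]
      obtain ⟨S, hS, -⟩ := P.exists_isComplement_left 1
      obtain ⟨_, hsum⟩ := sum_complement hS (fun g => σ (g⁻¹)⁻¹ (θ (σ (g⁻¹) x)))
      have h3 : ∀ s : S, ∑ h : P, σ (((s : G) * h)⁻¹)⁻¹ (θ (σ (((s : G) * h)⁻¹) x)) = x := by
        intro s
        have h4 : ∀ h : P, σ (((s : G) * h)⁻¹)⁻¹ (θ (σ (((s : G) * h)⁻¹) x)) =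
            σ s ((σ h * θ * σ (h : G)⁻¹) (σ (s : G)⁻¹ x)) := by
          intro h
          simp only [inv_inv, mul_inv_rev, map_mul, Module.End.mul_apply]
        rw [Finset.sum_congr rfl fun h _ => h4 h, ← map_sum, ← LinearMap.sum_apply, ← hπ2,
          LinearMap.sub_apply, hx, sub_zero, Module.End.one_apply, ← Module.End.mul_apply, ← map_mul]
        simp
      show ∑ g : G, σ ((Equiv.inv G) g)⁻¹ (θ (σ ((Equiv.inv G) g) x)) = _
      simp only [Equiv.inv_apply]
      rw [hsum, Finset.sum_congr rfl fun s _ => h3 s, Finset.sum_const, Finset.card_univ,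
        ← Nat.card_eq_fintype_card, hS.card_left, Nat.cast_smul_eq_nsmul]
    rw [h2, map_smul, hz, smul_eq_mul, mul_one]
    exact hP

end ideal
end H29.BF
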