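import Cfsg.Agent.Lib.H29.BF2

/-! Brauer-Feit (S4732), part 3: a bounded left ideal with an idempotent of augmentation one. -/

set_option autoImplicit false

namespace H29.BF

open TensorProduct Polynomial

universe u v

theorem exists_t (a N D : ℕ) (hD : 1 ≤ D) : ∃ t : ℕ, (D - 1) ^ t * (a * t + 1) ^ N < D ^ t := by
  rcases Nat.eq_or_lt_of_le hD with h1 | h1
  · refine ⟨1, ?_⟩
    rw [← h1]; simp
  -- D ≥ 2
  have hr0 : (0 : ℝ) ≤ ((D - 1 : ℕ) : ℝ) / D := by positivity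
  have hDpos : (0 : ℝ) < D := by exact_mod_cast (by omega : 0 < D)
  have hr1 : ((D - 1 : ℕ) : ℝ) / D < 1 := by
    rw [div_lt_one hDpos]
    exact_mod_cast (by omega : D - 1 < D)
  have hlim : Filter.Tendsto (fun t : ℕ => (t : ℝ) ^ N * (((D - 1 : ℕ) : ℝ) / D) ^ t) Filter.atTop (nhds 0) :=
    tendsto_pow_const_mul_const_pow_of_lt_one N hr0 hr1
  have hC : (0 : ℝ) < ((a + 1 : ℕ) : ℝ) ^ N := by positivity
  have h2 : ∀ᶠ t : ℕ in Filter.atTop, (t : ℝ) ^ N * (((D - 1 : ℕ) : ℝ) / D) ^ t < 1 / ((a + 1 : ℕ) : ℝ) ^ N :=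
    hlim.eventually (gt_mem_nhds (by positivity))
  obtain ⟨t, ht, ht1⟩ := (h2.and (Filter.eventually_ge_atTop 1)).exists
  refine ⟨t, ?_⟩
  have h3 : (a * t + 1) ≤ (a + 1) * t := by nlinarith
  have h4 : (((a * t + 1 : ℕ) : ℝ)) ^ N ≤ ((a + 1 : ℕ) : ℝ) ^ N * (t : ℝ) ^ N := by
    rw [← mul_pow]
    apply pow_le_pow_left₀ (by positivity)
    exact_mod_cast h3
  have h5 : ((D - 1 : ℕ) : ℝ) ^ t * ((a * t + 1 : ℕ) : ℝ) ^ N < (D : ℝ) ^ t := by
    have hDt : (0 : ℝ) < (D : ℝ) ^ t := by positivity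
    calc ((D - 1 : ℕ) : ℝ) ^ t * ((a * t + 1 : ℕ) : ℝ) ^ N
        ≤ ((D - 1 : ℕ) : ℝ) ^ t * (((a + 1 : ℕ) : ℝ) ^ N * (t : ℝ) ^ N) :=
          mul_le_mul_of_nonneg_left h4 (by positivity)
      _ = (D : ℝ) ^ t * (((a + 1 : ℕ) : ℝ) ^ N * ((t : ℝ) ^ N * (((D - 1 : ℕ) : ℝ) / D) ^ t)) := by
          rw [div_pow]; field_simp
      _ < (D : ℝ) ^ t * (((a + 1 : ℕ) : ℝ) ^ N * (1 / ((a + 1 : ℕ) : ℝ) ^ N)) := by
          apply mul_lt_mul_of_pos_left _ hDt
          exact mul_lt_mul_of_pos_left ht hC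
      _ = (D : ℝ) ^ t := by
          rw [mul_one_div_cancel hC.ne', mul_one]
  exact_mod_cast h5

/-- the bound -/
theorem exists_bound_ideal (p n m : ℕ) : ∃ B : ℕ, ∀ (k : Type v) (G : Type u) [Field k] [Group G]
    [Finite G] [Fact p.Prime] [CharP k p] (ρ : Representation k G (Fin n → k)), Function.Injective ρ →
    (Nat.card G).factorization p = m →
    ∃ I : Submodule k (MonoidAlgebra k G), (∀ (g : G), ∀ y ∈ I, MonoidAlgebra.single g 1 * y ∈ I) ∧
      Module.finrank k I ≤ B ∧ ∃ a ∈ I, aug k G a ≠ 0 := by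
  rcases Nat.eq_zero_or_pos n with hn | hn
  · subst hn
    refine ⟨1, ?_⟩
    intro k G _ _ _ _ _ ρ hρ _
    have hsub : Subsingleton G := by
      constructor
      intro x y
      apply hρ
      ext i j
      exact Fin.elim0 j
    refine ⟨⊤, fun _ _ _ => trivial, ?_, MonoidAlgebra.single 1 1, trivial, ?_⟩
    · classical
      have := Fintype.ofFinite G
      rw [finrank_top]
      have h1 : Module.finrank k (MonoidAlgebra k G) = Nat.card G := by
        rw [Nat.card_eq_fintype_card]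
        exact Module.finrank_eq_card_basis (MonoidAlgebra.basis G k)
      rw [h1]
      exact Finite.card_le_one_iff_subsingleton.mpr hsub
    · rw [aug_single]; exact one_ne_zero
  set a : ℕ := p ^ m - 1 with ha
  obtain ⟨t, ht⟩ := exists_t a (n * n) (n ^ a) (Nat.one_le_pow _ _ hn)
  refine ⟨((n ^ a) ^ t) ^ 2, ?_⟩
  intro k G _ _ _ _ _ ρ hρ hm
  classical
  have hfinG := Fintype.ofFinite G
  obtain ⟨P⟩ : Nonempty (Sylow p G) := inferInstance
  have hP : Nat.card (P : Subgroup G) = p ^ m := by rw [← hm]; exact P.card_eq_multiplicity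
  have hindex : ((P : Subgroup G).index : k) ≠ 0 := by
    rw [Ne, CharP.cast_eq_zero_iff k p]
    exact P.not_dvd_index
  obtain ⟨X, i1, i2, i3, σ, h1, h2, -⟩ := exists_tpow ρ a
  obtain ⟨Y, j1, j2, j3, τ, k1, k2, k3⟩ := exists_tpow σ t
  have hn' : Module.finrank k (Fin n → k) = n := by simp
  have hcore : CoreBd (P : Subgroup G) σ (Module.finrank k X - 1) := by
    apply CoreBd.base
    rw [h2]
    exact exists_good (p := p) ρ hρ (P : Subgroup G) hP
  have hcore2 := k3 (P : Subgroup G) _ hcore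
  have hCS : Module.finrank k (CS τ) ≤ (a * t + 1) ^ (n * n) := by
    obtain ⟨c, hc⟩ := CS_le_span ρ
    have h5 := finrank_pow_le c (CS ρ) hc (a * t)
    rw [k2, h2, ← pow_mul]
    refine h5.trans ?_
    rw [Fintype.card_prod, Fintype.card_fin, hn']
  obtain ⟨I, hI1, hI2, hI3⟩ := exists_ideal hcore2 hindex (by
    rw [k1, h1, hn']
    exact lt_of_le_of_lt (Nat.mul_le_mul_left _ hCS) ht)
  refine ⟨I, hI1, hI2.trans ?_, hI3⟩
  rw [k1, h1, hn']

/-- a Fitting type lemma -/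
theorem exists_idem {k R : Type*} [Field k] [Ring R] [Algebra k R] [Module.Finite k R]
    (ε : R →ₐ[k] k) (a : R) (ha : ε a ≠ 0) : ∃ u : R, (u * a) * (u * a) = u * a ∧ ε (u * a) = 1 := by
  set μ := minpoly k a with hμ
  have hμ0 : μ ≠ 0 := minpoly.ne_zero (Algebra.IsIntegral.isIntegral a)
  obtain ⟨q, hq, hq0⟩ : ∃ q : k[X], μ ∣ X ^ (μ.rootMultiplicity 0 + 1) * q ∧ q.eval 0 ≠ 0 := by
    obtain ⟨q, hq, hq'⟩ := Polynomial.exists_eq_pow_rootMultiplicity_mul_and_not_dvd μ hμ0 0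
    refine ⟨q, ?_, ?_⟩
    · conv_lhs => rw [hq]
      rw [map_zero, sub_zero, pow_succ]
      exact ⟨X, by ring⟩
    · rw [map_zero, sub_zero] at hq'
      intro h0
      exact hq' (Polynomial.X_dvd_iff.mpr (by rwa [Polynomial.coeff_zero_eq_eval_zero]))
  set r := μ.rootMultiplicity 0 with hr
  have hcop : IsCoprime (X ^ (r + 1)) q := by
    apply IsCoprime.pow_left
    rw [← sub_zero (X : k[X]), ← map_zero (C : k →+* k[X])]
    exact (Polynomial.irreducible_X_sub_C 0).coprime_iff_not_dvd.mpr (by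
      rw [Polynomial.dvd_iff_isRoot]; exact hq0)
  obtain ⟨u, v, huv⟩ := hcop
  have hzero : (aeval a) (X ^ (r + 1) * q) = 0 := by
    obtain ⟨w, hw⟩ := hq
    rw [hw, map_mul, minpoly.aeval, zero_mul]
  refine ⟨aeval a (u * X ^ r), ?_⟩
  have he : aeval a (u * X ^ r) * a = aeval a (u * X ^ (r + 1)) := by
    rw [pow_succ, ← mul_assoc, map_mul (aeval a) (u * X ^ r) X, aeval_X]
  rw [he]
  have h1 : aeval a (u * X ^ (r + 1)) * aeval a (u * X ^ (r + 1)) = aeval a (u * X ^ (r + 1)) := by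
    rw [← map_mul]
    have : u * X ^ (r + 1) * (u * X ^ (r + 1)) = u * X ^ (r + 1) - (u * v) * (X ^ (r + 1) * q) := by
      linear_combination (u * X ^ (r + 1)) * huv
    rw [this, map_sub, map_mul (aeval a) (u * v), hzero, mul_zero, sub_zero]
  refine ⟨h1, ?_⟩
  have h2 : ε (aeval a (u * X ^ (r + 1))) * ε (aeval a (u * X ^ (r + 1))) = ε (aeval a (u * X ^ (r + 1))) := by
    rw [← map_mul, h1]
  have h3 : ε (aeval a (u * X ^ (r + 1))) ≠ 0 := by
    intro h0
    have e1 : ∀ f : k[X], ε (aeval a f) = f.eval (ε a) := by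
      intro f
      rw [← Polynomial.aeval_algHom_apply, Polynomial.coe_aeval_eq_eval]
    have h4 : (X ^ (r + 1) * q).eval (ε a) = 0 := by rw [← e1, hzero, map_zero]
    rw [e1] at h0
    have h5 : q.eval (ε a) = 0 := by
      rw [eval_mul, eval_pow, eval_X] at h4
      exact (mul_eq_zero.mp h4).resolve_left (pow_ne_zero _ ha)
    have h6 := congrArg (Polynomial.eval (ε a)) huv
    rw [eval_add, h0, eval_mul, h5, mul_zero, zero_add, eval_one] at h6
    exact zero_ne_one h6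
  exact mul_right_cancel₀ h3 (by rw [h2, one_mul])

end H29.BF
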