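import Cfsg.Agent.Lib.H29.BF3

/-! Brauer-Feit (S4732), part 4: lifting idempotents of group rings to complete local rings, lattices. -/

set_option autoImplicit false

namespace H29.BF

universe u v w

section lift
variable {G : Type u} [Group G] [Finite G]

theorem exists_smul_of_dvd {W : Type w} [CommRing W] (a : W) (x : MonoidAlgebra W G)
    (h : ∀ g, a ∣ x.coeff g) : ∃ y : MonoidAlgebra W G, x = a • y := by
  classical
  have := Fintype.ofFinite G
  choose c hc using h
  refine ⟨∑ g : G, MonoidAlgebra.single g (c g), ?_⟩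
  ext g
  rw [MonoidAlgebra.coeff_smul_apply, MonoidAlgebra.coeff_sum, Finset.sum_apply', hc, smul_eq_mul]
  congr 1
  rw [Finset.sum_eq_single g]
  · simp
  · intro b _ hb
    simp [MonoidAlgebra.coeff_single, Finsupp.single_eq_of_ne' hb]
  · intro h; exact absurd (Finset.mem_univ _) h

theorem dvd_coeff_smul {W : Type w} [CommRing W] (a : W) (y : MonoidAlgebra W G) (g : G) :
    a ∣ (a • y).coeff g := by
  rw [MonoidAlgebra.coeff_smul_apply, smul_eq_mul]; exact dvd_mul_right _ _

theorem dvd_coeff_iff {W : Type w} [CommRing W] (a : W) (x : MonoidAlgebra W G) :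
    (∀ g, a ∣ x.coeff g) ↔ MonoidAlgebra.mapRingHom G (Ideal.Quotient.mk (Ideal.span {a})) x = 0 := by
  constructor
  · intro h
    ext g
    rw [MonoidAlgebra.coeff_mapRingHom]
    exact Ideal.Quotient.eq_zero_iff_mem.mpr (Ideal.mem_span_singleton.mpr (h g))
  · intro h g
    have h1 := congrArg (fun x => x.coeff g) h
    simp only [MonoidAlgebra.coeff_mapRingHom] at h1
    exact Ideal.mem_span_singleton.mp (Ideal.Quotient.eq_zero_iff_mem.mp h1)

/-- idempotents lift -/
theorem exists_lift_idem {W : Type w} {k : Type v} [CommRing W] [CommRing k] (φ : W →+* k)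
    (hφ : Function.Surjective φ) (π : W) (hker : RingHom.ker φ = Ideal.span {π})
    [IsAdicComplete (Ideal.span {π}) W] (e : MonoidAlgebra k G) (he : e * e = e) :
    ∃ E : MonoidAlgebra W G, E * E = E ∧ MonoidAlgebra.mapRingHom G φ E = e := by
  classical
  have := Fintype.ofFinite G
  have hφ0 : ∀ x : MonoidAlgebra W G, (∀ g, π ∣ x.coeff g) ↔ MonoidAlgebra.mapRingHom G φ x = 0 := by
    intro x
    constructor
    · intro h
      ext g
      rw [MonoidAlgebra.coeff_mapRingHom]
      have : x.coeff g ∈ RingHom.ker φ := by rw [hker]; exact Ideal.mem_span_singleton.mpr (h g)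
      exact this
    · intro h g
      have h1 := congrArg (fun x => x.coeff g) h
      simp only [MonoidAlgebra.coeff_mapRingHom] at h1
      have : x.coeff g ∈ RingHom.ker φ := h1
      rw [hker] at this
      exact Ideal.mem_span_singleton.mp this
  -- initial lift
  obtain ⟨f0, hf0⟩ : ∃ f : MonoidAlgebra W G, MonoidAlgebra.mapRingHom G φ f = e := by
    choose s hs using hφ
    refine ⟨∑ g : G, MonoidAlgebra.single g (s (e.coeff g)), ?_⟩
    ext g
    rw [MonoidAlgebra.coeff_mapRingHom, MonoidAlgebra.coeff_sum, Finset.sum_apply',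
      Finset.sum_eq_single g]
    · simp [hs]
    · intro b _ hb
      simp [MonoidAlgebra.coeff_single, Finsupp.single_eq_of_ne' hb]
    · intro h; exact absurd (Finset.mem_univ _) h
  -- Newton iteration
  let f : ℕ → MonoidAlgebra W G := fun n => Nat.rec f0 (fun _ x => 3 * (x * x) - 2 * (x * x * x)) n
  have hf_zero : f 0 = f0 := rfl
  have hf_succ : ∀ n, f (n + 1) = 3 * (f n * f n) - 2 * (f n * f n * f n) := fun n => rfl
  have hd : ∀ n, ∀ g, π ^ (n + 1) ∣ (f n * f n - f n).coeff g := by
    intro n
    induction n with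
    | zero =>
      rw [zero_add, pow_one, hφ0, hf_zero, map_sub, map_mul, hf0, he, sub_self]
    | succ n ih =>
      obtain ⟨y, hy⟩ := exists_smul_of_dvd _ _ ih
      set d := f n * f n - f n with hdn
      have h1 : f (n + 1) * f (n + 1) - f (n + 1) = d * d * (4 * d - 3) := by
        rw [hf_succ, hdn]
        noncomm_ring
      intro g
      rw [h1, hy, smul_mul_smul_comm, smul_mul_assoc]
      refine dvd_trans ?_ (dvd_coeff_smul _ _ g)
      rw [← pow_add]
      exact pow_dvd_pow _ (by omega)
  have hstep : ∀ n, ∀ g, π ^ (n + 1) ∣ (f (n + 1) - f n).coeff g := by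
    intro n g
    obtain ⟨y, hy⟩ := exists_smul_of_dvd _ _ (hd n)
    have h1 : f (n + 1) - f n = (f n * f n - f n) * (1 - 2 * f n) := by
      rw [hf_succ]; noncomm_ring
    rw [h1, hy, smul_mul_assoc]
    exact dvd_coeff_smul _ _ g
  have hcauchy : ∀ m n, m ≤ n → ∀ g, π ^ m ∣ (f n - f m).coeff g := by
    intro m n hmn
    induction n, hmn using Nat.le_induction with
    | base => intro g; simp
    | succ n hmn ih =>
      intro g
      have : f (n + 1) - f m = (f (n + 1) - f n) + (f n - f m) := by abel
      rw [this, MonoidAlgebra.coeff_add, Finsupp.add_apply]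
      exact dvd_add ((pow_dvd_pow π (by omega)).trans (hstep n g)) (ih g)
  have hlim : ∀ g, ∃ L : W, ∀ n, π ^ n ∣ (f n).coeff g - L := by
    intro g
    obtain ⟨L, hL⟩ := IsPrecomplete.prec (I := Ideal.span {π}) (M := W) inferInstance
      (f := fun n => (f n).coeff g) (by
        intro m n hmn
        rw [SModEq.sub_mem, smul_eq_mul, Ideal.mul_top, Ideal.span_singleton_pow,
          Ideal.mem_span_singleton]
        have := hcauchy m n hmn g
        rw [MonoidAlgebra.coeff_sub, Finsupp.sub_apply] at this
        rw [← neg_sub, dvd_neg]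
        exact this)
    refine ⟨L, fun n => ?_⟩
    have := hL n
    rw [SModEq.sub_mem, smul_eq_mul, Ideal.mul_top, Ideal.span_singleton_pow,
      Ideal.mem_span_singleton] at this
    exact this
  choose L hL using hlim
  set E : MonoidAlgebra W G := ∑ g : G, MonoidAlgebra.single g (L g) with hE
  have hEc : ∀ g, E.coeff g = L g := by
    intro g
    rw [hE, MonoidAlgebra.coeff_sum, Finset.sum_apply', Finset.sum_eq_single g]
    · simp
    · intro b _ hb
      simp [MonoidAlgebra.coeff_single, Finsupp.single_eq_of_ne' hb]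
    · intro h; exact absurd (Finset.mem_univ _) h
  have hEf : ∀ n, MonoidAlgebra.mapRingHom G (Ideal.Quotient.mk (Ideal.span {π ^ n})) (f n) =
      MonoidAlgebra.mapRingHom G (Ideal.Quotient.mk (Ideal.span {π ^ n})) E := by
    intro n
    rw [← sub_eq_zero, ← map_sub, ← dvd_coeff_iff]
    intro g
    rw [MonoidAlgebra.coeff_sub, Finsupp.sub_apply, hEc]
    exact hL g n
  refine ⟨E, ?_, ?_⟩
  · rw [← sub_eq_zero]
    ext g
    show (E * E - E).coeff g = 0
    apply IsHausdorff.haus (I := Ideal.span {π}) (M := W) inferInstance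
    intro n
    rw [SModEq.zero, smul_eq_mul, Ideal.mul_top, Ideal.span_singleton_pow, Ideal.mem_span_singleton]
    revert g
    rw [dvd_coeff_iff, map_sub, map_mul, ← hEf, ← map_mul, ← map_sub, ← dvd_coeff_iff]
    intro g
    exact (pow_dvd_pow π (by omega)).trans (hd n g)
  · rw [← sub_eq_zero, ← hf0, ← map_sub, ← hφ0]
    intro g
    have h1 := hL g 1
    have h2 := hstep 0 g
    rw [pow_one] at h1
    rw [zero_add, pow_one, MonoidAlgebra.coeff_sub, Finsupp.sub_apply] at h2
    rw [MonoidAlgebra.coeff_sub, Finsupp.sub_apply, hEc]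
    have : L g - f0.coeff g = ((f 1).coeff g - (f 0).coeff g) - ((f 1).coeff g - L g) := by
      rw [hf_zero]; ring
    rw [this]
    exact dvd_sub h2 h1

end lift

end H29.BF
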