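import Cfsg.Agent.Lib.H29.BF4

/-! Brauer-Feit (S4732), part 5: lattices, specialisation to `ℂ`. -/

set_option autoImplicit false

namespace H29.BF

universe u v w

theorem map_smul_ring {G : Type u} [Group G] {W : Type w} {k : Type v} [CommRing W] [CommRing k]
    (φ : W →+* k) (a : W) (x : MonoidAlgebra W G) :
    MonoidAlgebra.mapRingHom G φ (a • x) = φ a • MonoidAlgebra.mapRingHom G φ x := by
  ext g
  simp [MonoidAlgebra.coeff_mapRingHom]

/-- the lattice of an idempotent -/
theorem exists_lattice {G : Type u} [Group G] [Finite G] {W : Type w} {k : Type v} [CommRing W]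
    [IsDomain W] [IsPrincipalIdealRing W] [Field k] (φ : W →+* k)
    (hφ : Function.Surjective φ) (π : W) (hker : RingHom.ker φ = Ideal.span {π})
    (E : MonoidAlgebra W G) (hE : E * E = E) :
    ∃ r ≤ Module.finrank k (LinearMap.range (LinearMap.mulRight k (MonoidAlgebra.mapRingHom G φ E))),
      ∃ R : G →* Matrix (Fin r) (Fin r) W, ∀ g, R g = 1 →
        ∀ x, MonoidAlgebra.single g 1 * (x * E) = x * E := by
  classical
  have := Fintype.ofFinite G
  set L : Submodule W (MonoidAlgebra W G) := LinearMap.range (LinearMap.mulRight W E) with hL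
  have hmem : ∀ y, y * E ∈ L := fun y => ⟨y, rfl⟩
  have hmemE : ∀ x ∈ L, x * E = x := by
    rintro _ ⟨y, rfl⟩
    show y * E * E = y * E
    rw [mul_assoc, hE]
  have hleft : ∀ g : G, ∀ x ∈ L, (LinearMap.mulLeft W (MonoidAlgebra.single g (1 : W))) x ∈ L := by
    rintro g _ ⟨y, rfl⟩
    refine ⟨MonoidAlgebra.single g 1 * y, ?_⟩
    show MonoidAlgebra.single g 1 * y * E = MonoidAlgebra.single g 1 * (y * E)
    rw [mul_assoc]
  let Rep : G →* Module.End W L :=
    { toFun := fun g => (LinearMap.mulLeft W (MonoidAlgebra.single g (1 : W))).restrict (hleft g)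
      map_one' := by
        ext x : 2
        show MonoidAlgebra.single (1 : G) (1 : W) * (x : MonoidAlgebra W G) = x
        rw [← MonoidAlgebra.one_def, one_mul]
      map_mul' := fun g h => by
        ext x : 2
        show MonoidAlgebra.single (g * h) (1 : W) * (x : MonoidAlgebra W G) =
          MonoidAlgebra.single g (1 : W) * (MonoidAlgebra.single h (1 : W) * (x : MonoidAlgebra W G))
        rw [← mul_assoc, MonoidAlgebra.single_mul_single, mul_one] }
  obtain ⟨r, b⟩ := Submodule.basisOfPid (MonoidAlgebra.basis G W) L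
  refine ⟨r, ?_, ((LinearMap.toMatrixAlgEquiv b : Module.End W L ≃ₐ[W] _) : Module.End W L →* _).comp Rep, ?_⟩
  · set e := MonoidAlgebra.mapRingHom G φ E with he
    let v : Fin r → LinearMap.range (LinearMap.mulRight k e) := fun i =>
      ⟨MonoidAlgebra.mapRingHom G φ (b i), by
        refine ⟨MonoidAlgebra.mapRingHom G φ (b i), ?_⟩
        show MonoidAlgebra.mapRingHom G φ (b i) * e = _
        rw [he, ← map_mul, hmemE _ (b i).2]⟩
    have hfin : Module.Finite k (MonoidAlgebra k G) := Module.Finite.of_basis (MonoidAlgebra.basis G k)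
    have hli : LinearIndependent k v := by
      rw [Fintype.linearIndependent_iff]
      intro c hc
      choose C hC using fun i => hφ (c i)
      have h1 : MonoidAlgebra.mapRingHom G φ ((∑ i, C i • b i : L) : MonoidAlgebra W G) = 0 := by
        have h2 := congrArg Subtype.val hc
        simp only [Submodule.coe_sum, Submodule.coe_smul, Submodule.coe_zero] at h2 ⊢
        rw [map_sum, ← h2]
        refine Finset.sum_congr rfl fun i _ => ?_
        rw [map_smul_ring, hC]
      set x : L := ∑ i, C i • b i with hx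
      have h3 : ∀ g, π ∣ (x : MonoidAlgebra W G).coeff g := by
        intro g
        have h4 := congrArg (fun x => x.coeff g) h1
        simp only [MonoidAlgebra.coeff_mapRingHom] at h4
        have h5 : (x : MonoidAlgebra W G).coeff g ∈ RingHom.ker φ := h4
        rw [hker] at h5
        exact Ideal.mem_span_singleton.mp h5
      obtain ⟨y, hy⟩ := exists_smul_of_dvd _ _ h3
      have h6 : x = π • (⟨y * E, hmem y⟩ : L) := by
        apply Subtype.ext
        show (x : MonoidAlgebra W G) = π • (y * E)
        rw [← smul_mul_assoc, ← hy, hmemE _ x.2]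
      intro i
      have h7 : b.repr x i = C i := by
        rw [hx, map_sum, Finset.sum_apply']
        simp [Finsupp.single_apply]
      rw [← hC i, ← h7, h6, map_smul, Finsupp.smul_apply, smul_eq_mul, map_mul]
      have : φ π = 0 := by
        have : π ∈ RingHom.ker φ := by rw [hker]; exact Ideal.mem_span_singleton_self π
        exact this
      rw [this, zero_mul]
    have := hli.fintype_card_le_finrank
    simpa using this
  · intro g hg x
    have h1 : (LinearMap.toMatrixAlgEquiv b) (Rep g) = 1 := hg
    have h2 : Rep g = 1 := by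
      apply (LinearMap.toMatrixAlgEquiv b).injective
      rw [h1, map_one]
    have h3 := congrArg (fun f : Module.End W L => ((f ⟨x * E, hmem x⟩ : L) : MonoidAlgebra W G)) h2
    exact h3

theorem exists_ringHom {A : Type v} [CommRing A] [Nontrivial A] [Algebra ℚ A] [Algebra.FiniteType ℚ A] :
    Nonempty (A →+* ℂ) := by
  obtain ⟨m, hm⟩ := Ideal.exists_maximal A
  let _ : Field (A ⧸ m) := Ideal.Quotient.field m
  have hq : Algebra.FiniteType ℚ (A ⧸ m) := inferInstance
  have hfin : Module.Finite ℚ (A ⧸ m) := finite_of_finite_type_of_isJacobsonRing ℚ (A ⧸ m)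
  have halg : Algebra.IsAlgebraic ℚ (A ⧸ m) := Algebra.IsAlgebraic.of_finite ℚ (A ⧸ m)
  let ψ : (A ⧸ m) →ₐ[ℚ] ℂ := IsAlgClosed.lift
  exact ⟨(ψ : (A ⧸ m) →+* ℂ).comp (Ideal.Quotient.mk m)⟩

/-- specialisation of matrix representations from characteristic zero to `ℂ` -/
theorem exists_complex {K : Type v} [Field K] [CharZero K] {G : Type u} [Group G] [Finite G] {r : ℕ}
    (R : G →* Matrix (Fin r) (Fin r) K) :
    ∃ R' : G →* Matrix (Fin r) (Fin r) ℂ, ∀ g, R' g = 1 → R g = 1 := by
  classical
  have := Fintype.ofFinite G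
  have h1 : ∀ g, ∃ x : K, x ≠ 0 ∧ (R g ≠ 1 → ∃ i j, x = (R g - 1) i j) ∧
      (x = 1 ∨ ∃ i j, x = (R g - 1) i j) := by
    intro g
    by_cases hg : R g = 1
    · exact ⟨1, one_ne_zero, fun h => absurd hg h, Or.inl rfl⟩
    · have : ∃ i j, (R g - 1) i j ≠ 0 := by
        by_contra hcon
        push Not at hcon
        exact hg (sub_eq_zero.mp (Matrix.ext hcon))
      obtain ⟨i, j, hij⟩ := this
      exact ⟨_, hij, fun _ => ⟨i, j, rfl⟩, Or.inr ⟨i, j, rfl⟩⟩
  choose X hX0 hX1 hX2 using h1
  set d : K := ∏ g : G, X g with hd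
  have hd0 : d ≠ 0 := by
    rw [hd, Finset.prod_ne_zero_iff]
    intro g _
    exact hX0 g
  set S : Finset K := insert d⁻¹ (Finset.univ.image fun x : G × Fin r × Fin r => R x.1 x.2.1 x.2.2) with hS
  set A : Subalgebra ℚ K := Algebra.adjoin ℚ (S : Set K) with hA
  have hAfin : Algebra.FiniteType ℚ A := by
    rw [← Subalgebra.fg_iff_finiteType]
    exact Subalgebra.fg_adjoin_finset S
  have hent : ∀ g i j, R g i j ∈ A := by
    intro g i j
    apply Algebra.subset_adjoin
    rw [hS, Finset.coe_insert]
    right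
    exact Finset.mem_coe.mpr (Finset.mem_image.mpr ⟨(g, i, j), Finset.mem_univ _, rfl⟩)
  have hdinv : d⁻¹ ∈ A := by
    apply Algebra.subset_adjoin
    rw [hS, Finset.coe_insert]
    left; rfl
  -- the representation over `A`
  let val : A →+* K := (A.val : A →+* K)
  have hval : Function.Injective val := Subtype.val_injective
  have hmapinj : Function.Injective (val.mapMatrix : Matrix (Fin r) (Fin r) A →+* Matrix (Fin r) (Fin r) K) := by
    intro M N h
    ext i j
    exact congrFun (congrFun h i) j
  let RAf : G → Matrix (Fin r) (Fin r) A := fun g => Matrix.of fun i j => ⟨R g i j, hent g i j⟩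
  have hRAf : ∀ g, val.mapMatrix (RAf g) = R g := by
    intro g; ext i j; rfl
  let RA : G →* Matrix (Fin r) (Fin r) A :=
    { toFun := RAf
      map_one' := by
        apply hmapinj
        rw [hRAf, map_one, map_one]
      map_mul' := fun g h => by
        apply hmapinj
        rw [map_mul, hRAf, hRAf, hRAf, map_mul] }
  have hRA : ∀ g, val.mapMatrix (RA g) = R g := hRAf
  obtain ⟨Ψ⟩ := exists_ringHom (A := A)
  refine ⟨((Ψ.mapMatrix : Matrix (Fin r) (Fin r) A →+* Matrix (Fin r) (Fin r) ℂ) : Matrix (Fin r) (Fin r) A →* Matrix (Fin r) (Fin r) ℂ).comp RA, ?_⟩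
  intro g hg
  by_contra hne
  have h2 : Ψ.mapMatrix (RA g) = 1 := hg
  -- the entry
  obtain ⟨i, j, hij⟩ := hX1 g hne
  set a : A := (RA g - 1) i j with ha
  have h3 : Ψ a = 0 := by
    have : Ψ.mapMatrix (RA g - 1) = 0 := by rw [map_sub, h2, map_one, sub_self]
    exact congrFun (congrFun this i) j
  have haval : (a : K) = X g := by
    have : val.mapMatrix (RA g - 1) = R g - 1 := by rw [map_sub, hRA, map_one]
    rw [hij]
    exact congrFun (congrFun this i) j
  -- `a` is a unit of `A`
  have hunit : IsUnit a := by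
    have hprod : ∏ x ∈ Finset.univ.erase g, X x ∈ A := by
      apply Subalgebra.prod_mem
      intro x _
      rcases hX2 x with h | ⟨i, j, h⟩
      · rw [h]; exact A.one_mem
      · rw [h]
        have : val.mapMatrix (RA x - 1) = R x - 1 := by rw [map_sub, hRA, map_one]
        have h4 := congrFun (congrFun this i) j
        rw [← h4]
        exact ((RA x - 1) i j).2
    have hdd : X g * ∏ x ∈ Finset.univ.erase g, X x = d :=
      Finset.mul_prod_erase Finset.univ _ (Finset.mem_univ _)
    apply IsUnit.of_mul_eq_one (⟨_, hprod⟩ * ⟨d⁻¹, hdinv⟩ : A)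
    apply Subtype.ext
    show (a : K) * ((∏ x ∈ Finset.univ.erase g, X x) * d⁻¹) = 1
    rw [haval, ← mul_assoc, hdd, mul_inv_cancel₀ hd0]
  have := hunit.map Ψ
  rw [h3] at this
  exact not_isUnit_zero this

end H29.BF
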