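import Cfsg.Agent.Lib.H29.BF5
import Cfsg.Agent.Lib.H77.Unitary
import Cfsg.Agent.Lib.H77.FrobComm
import Cfsg.Agent.Lib.H55.ChermakDelgado

/-! Brauer-Feit (S4732), part 6: complex representations from idempotents; Jordan's theorem. -/

set_option autoImplicit false

namespace H29.BF

universe u v w

section witt
variable (p : ℕ) [Fact p.Prime] {k : Type v} [Field k] [CharP k p] [PerfectRing k p]

omit [PerfectRing k p] in
theorem witt_charZero : CharZero (WittVector p k) := by
  obtain ⟨q, hq⟩ := CharP.exists (WittVector p k)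
  rcases CharP.char_is_prime_or_zero (WittVector p k) q with h | h
  · exfalso
    have h1 : (q : WittVector p k) = 0 := CharP.cast_eq_zero _ _
    have h2 : (q : k) = 0 := by
      have := congrArg (WittVector.constantCoeff : WittVector p k →+* k) h1
      rwa [map_natCast, map_zero] at this
    have h3 : p ∣ q := (CharP.cast_eq_zero_iff k p q).mp h2
    have h4 : p = q := (Nat.prime_dvd_prime_iff_eq (Fact.out) h).mp h3
    rw [← h4] at h1
    exact WittVector.p_nonzero p k h1
  · subst h
    exact CharP.charP_to_charZero _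

include p in
/-- every idempotent of `kG` gives a complex representation of bounded degree -/
theorem exists_complex_rep {G : Type u} [Group G] [Finite G] (e : MonoidAlgebra k G) (he : e * e = e) :
    ∃ r ≤ Module.finrank k (LinearMap.range (LinearMap.mulRight k e)),
      ∃ R : G →* Matrix (Fin r) (Fin r) ℂ, ∀ g, R g = 1 →
        ∀ x, MonoidAlgebra.single g (1 : k) * (x * e) = x * e := by
  classical
  have := Fintype.ofFinite G
  obtain ⟨E, hE, hEe⟩ := exists_lift_idem (WittVector.constantCoeff : WittVector p k →+* k)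
    (WittVector.constantCoeff_surjective p) (p : WittVector p k) WittVector.ker_constantCoeff e he
  obtain ⟨r, hr, R, hR⟩ := exists_lattice (WittVector.constantCoeff : WittVector p k →+* k)
    (WittVector.constantCoeff_surjective p) (p : WittVector p k) WittVector.ker_constantCoeff E hE
  rw [hEe] at hr
  have : CharZero (WittVector p k) := witt_charZero p
  set K := FractionRing (WittVector p k) with hK
  have hinj : Function.Injective (algebraMap (WittVector p k) K) := IsFractionRing.injective _ _
  have : CharZero K := charZero_of_injective_algebraMap hinj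
  let RK : G →* Matrix (Fin r) (Fin r) K :=
    (((algebraMap (WittVector p k) K).mapMatrix : Matrix (Fin r) (Fin r) (WittVector p k) →+* _) :
      Matrix (Fin r) (Fin r) (WittVector p k) →* Matrix (Fin r) (Fin r) K).comp R
  obtain ⟨R', hR'⟩ := exists_complex RK
  refine ⟨r, hr, R', fun g hg x => ?_⟩
  have h1 : RK g = 1 := hR' g hg
  have h2 : R g = 1 := by
    refine Matrix.ext fun i j => ?_
    apply hinj
    have h3 := congrFun (congrFun h1 i) j
    have h4 : RK g i j = algebraMap (WittVector p k) K (R g i j) := rfl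
    rw [← h4, h3, Matrix.one_apply, Matrix.one_apply]
    split_ifs <;> simp
  obtain ⟨X, hX⟩ : ∃ X : MonoidAlgebra (WittVector p k) G,
      MonoidAlgebra.mapRingHom G WittVector.constantCoeff X = x := by
    choose s hs using WittVector.constantCoeff_surjective (R := k) p
    refine ⟨∑ g : G, MonoidAlgebra.single g (s (x.coeff g)), ?_⟩
    ext g
    rw [MonoidAlgebra.coeff_mapRingHom, MonoidAlgebra.coeff_sum, Finset.sum_apply',
      Finset.sum_eq_single g]
    · simp [hs]
    · intro b _ hb
      simp [MonoidAlgebra.coeff_single, Finsupp.single_eq_of_ne' hb]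
    · intro h; exact absurd (Finset.mem_univ _) h
  have h5 := congrArg (MonoidAlgebra.mapRingHom G (WittVector.constantCoeff : WittVector p k →+* k))
    (hR g h2 X)
  rw [map_mul, map_mul, hX, hEe] at h5
  have h6 : MonoidAlgebra.mapRingHom G (WittVector.constantCoeff : WittVector p k →+* k)
      (MonoidAlgebra.single g 1) = MonoidAlgebra.single g 1 := by
    ext h
    rw [MonoidAlgebra.coeff_mapRingHom]
    by_cases hh : g = h
    · subst hh; simp
    · simp [MonoidAlgebra.coeff_single, Finsupp.single_eq_of_ne' hh]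
  rw [h6] at h5
  exact h5

end witt

section jordan
open scoped Matrix.Norms.L2Operator

/-- Jordan's theorem -/
theorem jordan_inj (n : ℕ) : ∃ J : ℕ, 0 < J ∧ ∀ (G : Type u) [Group G] [Finite G]
    (R : G →* Matrix (Fin n) (Fin n) ℂ), Function.Injective R →
    ∃ A : Subgroup G, A.Normal ∧ A.index ≤ J ∧ ∀ x ∈ A, ∀ y ∈ A, x * y = y * x := by
  classical
  rcases Nat.eq_zero_or_pos n with hn | hn
  · subst hn
    refine ⟨1, one_pos, ?_⟩
    intro G _ _ R hR
    have hsub : Subsingleton G := ⟨fun a b => hR (Subsingleton.elim _ _)⟩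
    exact ⟨⊤, inferInstance, by simp, fun x _ y _ => Subsingleton.elim _ _⟩
  have : NeZero n := ⟨hn.ne'⟩
  set U : Set (Matrix (Fin n) (Fin n) ℂ) := ((unitary (Matrix (Fin n) (Fin n) ℂ) : Submonoid _) : Set (Matrix (Fin n) (Fin n) ℂ)) with hU
  have htb : TotallyBounded U := by
    have : ProperSpace (Matrix (Fin n) (Fin n) ℂ) := FiniteDimensional.proper ℂ _
    refine (isCompact_closedBall (0 : Matrix (Fin n) (Fin n) ℂ) 1).totallyBounded.subset ?_
    intro x hx
    rw [mem_closedBall_zero_iff]
    exact (CStarRing.norm_of_mem_unitary hx).le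
  obtain ⟨s, hs, hcov⟩ := Metric.totallyBounded_iff.mp htb (1 / 4) (by norm_num)
  refine ⟨hs.toFinset.card + 1, Nat.succ_pos _, ?_⟩
  intro G _ _ R hR
  obtain ⟨P, hP, hPU⟩ := H77.Unitary.exists_unitary_conj R
  have hdet : IsUnit P.det := (Matrix.isUnit_iff_isUnit_det _).mp hP
  have hP1 : P⁻¹ * P = 1 := Matrix.nonsing_inv_mul _ hdet
  have hP2 : P * P⁻¹ = 1 := Matrix.mul_nonsing_inv _ hdet
  let V : G →* Matrix (Fin n) (Fin n) ℂ :=
    { toFun := fun g => P * R g * P⁻¹
      map_one' := by rw [map_one, mul_one, hP2]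
      map_mul' := fun g h => by
        show P * R (g * h) * P⁻¹ = (P * R g * P⁻¹) * (P * R h * P⁻¹)
        rw [map_mul]
        calc P * (R g * R h) * P⁻¹ = P * R g * 1 * R h * P⁻¹ := by simp only [mul_assoc, one_mul]
          _ = P * R g * (P⁻¹ * P) * R h * P⁻¹ := by rw [hP1]
          _ = (P * R g * P⁻¹) * (P * R h * P⁻¹) := by simp only [mul_assoc] }
  have hVdef : ∀ g, V g = P * R g * P⁻¹ := fun g => rfl
  have hV : ∀ g, V g ∈ unitary (Matrix (Fin n) (Fin n) ℂ) := hPU
  have hVinj : Function.Injective V := by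
    intro g h hgh
    apply hR
    have h1 : P⁻¹ * (V g) * P = P⁻¹ * (V h) * P := by rw [hgh]
    rw [hVdef, hVdef] at h1
    have h2 : ∀ X : Matrix (Fin n) (Fin n) ℂ, P⁻¹ * (P * X * P⁻¹) * P = X := by
      intro X
      calc P⁻¹ * (P * X * P⁻¹) * P = (P⁻¹ * P) * X * (P⁻¹ * P) := by simp only [mul_assoc]
        _ = X := by rw [hP1, one_mul, mul_one]
    rwa [h2, h2] at h1
  set D : Set G := {g | ‖V g - 1‖ < 1 / 2} with hD
  have hDcomm : ∀ a ∈ D, ∀ b ∈ D, a * b = b * a := by
    intro a ha b hb
    refine H77.FrobComm.commute_of_small V hV hVinj 1 ?_ ?_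
    · rw [map_one]; exact ha
    · rw [norm_sub_rev]; exact lt_trans hb (by norm_num)
  have hDconj : ∀ x : G, ∀ a ∈ D, x * a * x⁻¹ ∈ D := by
    intro x a ha
    show ‖V (x * a * x⁻¹) - 1‖ < 1 / 2
    have h1 : V (x * a * x⁻¹) - 1 = V x * (V a - 1) * V x⁻¹ := by
      rw [mul_sub, sub_mul, mul_one, ← map_mul, ← map_mul, ← map_mul, mul_inv_cancel, map_one]
    rw [h1, CStarRing.norm_mul_mem_unitary _ (hV _), CStarRing.norm_mem_unitary_mul _ (hV _)]
    exact ha
  refine ⟨Subgroup.closure D, ?_, ?_, ?_⟩
  · have : Subgroup.closure D = Subgroup.normalClosure D := by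
      rw [Subgroup.normalClosure]
      congr 1
      apply Set.Subset.antisymm
      · exact Group.subset_conjugatesOfSet
      · intro y hy
        obtain ⟨a, ha, hay⟩ := Group.mem_conjugatesOfSet_iff.mp hy
        obtain ⟨c, hc⟩ := isConj_iff.mp hay
        rw [← hc]
        exact hDconj c a ha
    rw [this]
    infer_instance
  · have hc : ∀ g : G, ∃ c : hs.toFinset, ‖V g - c‖ < 1 / 4 := by
      intro g
      obtain ⟨c, hc, hgc⟩ := Set.mem_iUnion₂.mp (hcov (hV g))
      exact ⟨⟨c, hs.mem_toFinset.mpr hc⟩, by rw [← dist_eq_norm]; exact hgc⟩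
    choose c hc using hc
    have hsep : ∀ g h : G, c g = c h → g⁻¹ * h ∈ Subgroup.closure D := by
      intro g h hgh
      apply Subgroup.subset_closure
      show ‖V (g⁻¹ * h) - 1‖ < 1 / 2
      have h1 : V (g⁻¹ * h) - 1 = V g⁻¹ * (V h - V g) := by
        rw [mul_sub, ← map_mul, ← map_mul, inv_mul_cancel, map_one]
      rw [h1, CStarRing.norm_mem_unitary_mul _ (hV _)]
      have h2 : V h - V g = (V h - c h) - (V g - c g) := by rw [hgh]; abel
      rw [h2]
      calc ‖(V h - c h) - (V g - c g)‖ ≤ ‖V h - c h‖ + ‖V g - c g‖ := norm_sub_le _ _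
        _ < 1 / 4 + 1 / 4 := add_lt_add (hc h) (hc g)
        _ = 1 / 2 := by norm_num
    have hinj : Function.Injective (fun q : G ⧸ Subgroup.closure D => c q.out) := by
      intro q q' h
      have := hsep _ _ h
      rw [← QuotientGroup.out_eq' q, ← QuotientGroup.out_eq' q']
      exact QuotientGroup.eq.mpr this
    have h1 := Nat.card_le_card_of_injective _ hinj
    rw [Nat.card_eq_fintype_card (α := hs.toFinset), Fintype.card_coe] at h1
    exact h1.trans (Nat.le_succ _)
  · intro x hx y hy
    have h2 := (Subgroup.isMulCommutative_closure hDcomm).is_comm.comm ⟨x, hx⟩ ⟨y, hy⟩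
    exact congrArg Subtype.val h2

end jordan

end H29.BF
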