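import Cfsg.Agent.Lib.H29.BF6

/-! Brauer-Feit (S4732), part 7: assembly. -/

set_option autoImplicit false

namespace H29.BF

open H55.CD

universe u v w

/-- Chermak–Delgado -/
theorem exists_char_abelian {H : Type u} [Group H] [Finite H] (C : Subgroup H)
    (hC : ∀ x ∈ C, ∀ y ∈ C, x * y = y * x) :
    ∃ D : Subgroup H, D.Characteristic ∧ (∀ x ∈ D, ∀ y ∈ D, x * y = y * x) ∧ D.index ≤ C.index ^ 2 := by
  classical
  have hfin : Finite (Subgroup H) := inferInstance
  set S : Set (Subgroup H) := {K | Mem K} with hS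
  have hSfin : S.Finite := Set.toFinite _
  have key : ∀ T : Finset (Subgroup H), T.Nonempty → (∀ K ∈ T, Mem K) → Mem (T.inf id) := by
    intro T
    induction T using Finset.induction_on with
    | empty => intro h; exact absurd h Finset.not_nonempty_empty
    | insert a T ha ih =>
      intro _ h
      rw [Finset.inf_insert]
      rcases T.eq_empty_or_nonempty with hT | hT
      · subst hT
        simpa using h a (Finset.mem_insert_self _ _)
      · exact Mem.inf (h a (Finset.mem_insert_self _ _))
          (ih hT fun K hK => h K (Finset.mem_insert_of_mem hK))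
  set D : Subgroup H := hSfin.toFinset.inf id with hD
  have hDm : Mem D := by
    apply key
    · obtain ⟨K, hK⟩ := exists_mem H
      exact ⟨K, hSfin.mem_toFinset.mpr hK⟩
    · intro K hK; exact hSfin.mem_toFinset.mp hK
  have hDle : ∀ K, Mem K → D ≤ K := fun K hK => Finset.inf_le (f := id) (hSfin.mem_toFinset.mpr hK)
  refine ⟨D, ?_, ?_, ?_⟩
  · rw [Subgroup.characteristic_iff_le_map]
    intro φ
    apply hDle
    apply mem_of_le hDm
    unfold mu
    have h1 : Subgroup.centralizer ((D.map φ.toMonoidHom : Subgroup H) : Set H) =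
        (Subgroup.centralizer (D : Set H)).map φ.toMonoidHom := by
      ext x
      rw [Subgroup.mem_centralizer_iff]
      constructor
      · intro hx
        refine ⟨φ.symm x, ?_, by simp⟩
        rw [SetLike.mem_coe, Subgroup.mem_centralizer_iff]
        intro y hy
        have := hx (φ y) ⟨y, hy, rfl⟩
        apply φ.injective
        simpa using this
      · rintro ⟨y, hy, rfl⟩ z ⟨w, hw, rfl⟩
        have := (Subgroup.mem_centralizer_iff.mp hy) w hw
        show φ w * φ y = φ y * φ w
        rw [← map_mul, ← map_mul, this]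
    rw [h1, Subgroup.card_map_of_injective φ.injective, Subgroup.card_map_of_injective φ.injective]
  · have h1 := hDle _ hDm.centralizer
    intro x hx y hy
    exact ((Subgroup.mem_centralizer_iff.mp (h1 hx)) y hy).symm
  · have h1 : Nat.card C * Nat.card C ≤ Nat.card H * Nat.card D := by
      have h2 : mu C ≤ mu D := hDm C
      unfold mu at h2
      have h3 : Nat.card C ≤ Nat.card (Subgroup.centralizer (C : Set H)) :=
        Subgroup.card_le_of_le (fun x hx => Subgroup.mem_centralizer_iff.mpr fun y hy => hC y hy x hx)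
      have h4 : Nat.card (Subgroup.centralizer (D : Set H)) ≤ Nat.card H := Subgroup.card_le_card_group _
      calc Nat.card C * Nat.card C ≤ Nat.card C * Nat.card (Subgroup.centralizer (C : Set H)) :=
            Nat.mul_le_mul_left _ h3
        _ ≤ Nat.card D * Nat.card (Subgroup.centralizer (D : Set H)) := h2
        _ ≤ Nat.card D * Nat.card H := Nat.mul_le_mul_left _ h4
        _ = _ := mul_comm _ _
    have hCi : Nat.card C * C.index = Nat.card H := C.card_mul_index
    have hDi : Nat.card D * D.index = Nat.card H := D.card_mul_index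
    have hDpos : 0 < Nat.card D := Nat.card_pos
    have hHpos : 0 < Nat.card H := Nat.card_pos
    -- |H|^2 = |C|^2 i^2 ≤ |H||D| i^2
    have h5 : Nat.card H * Nat.card H ≤ (Nat.card H * Nat.card D) * C.index ^ 2 := by
      calc Nat.card H * Nat.card H = (Nat.card C * Nat.card C) * C.index ^ 2 := by
            rw [← hCi]; ring
        _ ≤ _ := Nat.mul_le_mul_right _ h1
    have h6 : Nat.card H ≤ Nat.card D * C.index ^ 2 := by
      rw [mul_assoc] at h5
      exact Nat.le_of_mul_le_mul_left h5 hHpos
    rw [← hDi] at h6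
    exact Nat.le_of_mul_le_mul_left h6 hDpos

/-- Jordan for arbitrary representations -/
theorem jordan (n : ℕ) : ∃ J : ℕ, 0 < J ∧ ∀ (G : Type u) [Group G] [Finite G]
    (R : G →* Matrix (Fin n) (Fin n) ℂ),
    ∃ A : Subgroup G, A.Normal ∧ A.index ≤ J ∧ ∀ x ∈ A, ∀ y ∈ A, R (x * y) = R (y * x) := by
  obtain ⟨J, hJ, h⟩ := jordan_inj.{u} n
  refine ⟨J, hJ, ?_⟩
  intro G _ _ R
  set N := R.ker with hN
  let R' : G ⧸ N →* Matrix (Fin n) (Fin n) ℂ := QuotientGroup.lift N R (fun x hx => hx)
  have hR' : ∀ g : G, R' (g : G ⧸ N) = R g := fun g => rfl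
  have hinj : Function.Injective R' := by
    intro a b
    induction a using QuotientGroup.induction_on with
    | H a =>
      induction b using QuotientGroup.induction_on with
      | H b =>
        intro hab
        rw [hR', hR'] at hab
        apply QuotientGroup.eq.mpr
        show R (a⁻¹ * b) = 1
        rw [map_mul, ← hab, ← map_mul, inv_mul_cancel, map_one]
  obtain ⟨A, hA1, hA2, hA3⟩ := h (G ⧸ N) R' hinj
  refine ⟨A.comap (QuotientGroup.mk' N), inferInstance, ?_, ?_⟩
  · rw [Subgroup.index_comap_of_surjective _ (QuotientGroup.mk'_surjective N)]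
    exact hA2
  · intro x hx y hy
    have h1 := hA3 _ hx _ hy
    have h2 := congrArg R' h1
    rw [← map_mul, ← map_mul] at h2
    exact h2

/-- uniform version -/
theorem jordan_le (B : ℕ) : ∃ J : ℕ, 0 < J ∧ ∀ r ≤ B, ∀ (G : Type u) [Group G] [Finite G]
    (R : G →* Matrix (Fin r) (Fin r) ℂ),
    ∃ A : Subgroup G, A.Normal ∧ A.index ≤ J ∧ ∀ x ∈ A, ∀ y ∈ A, R (x * y) = R (y * x) := by
  choose J hJ h using jordan.{u}
  refine ⟨∑ r ∈ Finset.range (B + 1), J r, ?_, ?_⟩
  · apply Finset.sum_pos (fun i _ => hJ i)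
    exact ⟨0, by simp⟩
  · intro r hr G _ _ R
    obtain ⟨A, h1, h2, h3⟩ := h r G R
    refine ⟨A, h1, h2.trans ?_, h3⟩
    exact Finset.single_le_sum (f := J) (fun i _ => Nat.zero_le _) (Finset.mem_range.mpr (by omega))

/-- an element of order `p` fixing `e` forces augmentation `0` -/
theorem aug_eq_zero {p : ℕ} [Fact p.Prime] {k : Type v} [Field k] [CharP k p] {G : Type u} [Group G]
    [Finite G] {h : G} (hh : orderOf h = p) {e : MonoidAlgebra k G}
    (he : MonoidAlgebra.single h 1 * e = e) : aug k G e = 0 := by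
  classical
  have := Fintype.ofFinite G
  -- coefficients are constant on right cosets of ⟨h⟩
  have h1 : ∀ g, e.coeff (h * g) = e.coeff g := by
    intro g
    conv_lhs => rw [← he]
    rw [MonoidAlgebra.coeff_single_mul_apply]
    simp
  have h2 : ∀ (i : ℕ) g, e.coeff (h ^ i * g) = e.coeff g := by
    intro i
    induction i with
    | zero => intro g; simp
    | succ i ih => intro g; rw [pow_succ, mul_assoc, ih, h1]
  have h3 : aug k G e = ∑ g : G, e.coeff g := by
    have : e = ∑ g : G, MonoidAlgebra.single g (e.coeff g) := by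
      ext g
      rw [MonoidAlgebra.coeff_sum, Finset.sum_apply', Finset.sum_eq_single g]
      · simp
      · intro b _ hb
        simp [MonoidAlgebra.coeff_single, Finsupp.single_eq_of_ne' hb]
      · intro h; exact absurd (Finset.mem_univ _) h
    conv_lhs => rw [this, map_sum]
    exact Finset.sum_congr rfl fun g _ => aug_single g _
  rw [h3]
  -- reindex by multiplication with powers: use inverses and a left transversal
  obtain ⟨S, hS, -⟩ := (Subgroup.zpowers h).exists_isComplement_left 1
  rw [← Equiv.sum_comp (Equiv.inv G)]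
  have : Fintype (Subgroup.zpowers h) := Fintype.ofFinite _
  obtain ⟨_, hsum⟩ := sum_complement hS (fun g => e.coeff (g⁻¹))
  simp only [Equiv.inv_apply]
  rw [hsum]
  apply Finset.sum_eq_zero
  intro s _
  have h4 : ∀ z : Subgroup.zpowers h, e.coeff (((s : G) * z)⁻¹) = e.coeff ((s : G)⁻¹) := by
    rintro ⟨z, hz⟩
    obtain ⟨i, hi⟩ := (mem_powers_iff_mem_zpowers.mpr ((Subgroup.zpowers h).inv_mem hz))
    have hi' : z⁻¹ = h ^ i := hi.symm
    show e.coeff (((s : G) * z)⁻¹) = _
    rw [mul_inv_rev, hi', h2]
  rw [Finset.sum_congr rfl fun z _ => h4 z, Finset.sum_const, Finset.card_univ,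
    ← Nat.card_eq_fintype_card, Nat.card_zpowers, hh, nsmul_eq_mul, CharP.cast_eq_zero, zero_mul]

/-- the `p'`-case -/
theorem pprime_case (n : ℕ) : ∃ J : ℕ, 0 < J ∧ ∀ (p : ℕ) [Fact p.Prime] (k : Type v) [Field k] [CharP k p]
    [PerfectRing k p] (H : Type u) [Group H] [Finite H] (ρ : Representation k H (Fin n → k)),
    Function.Injective ρ → ¬ p ∣ Nat.card H →
    ∃ C : Subgroup H, C.index ≤ J ∧ ∀ x ∈ C, ∀ y ∈ C, x * y = y * x := by
  classical
  obtain ⟨J, hJ, hJ'⟩ := jordan_le.{u} n
  refine ⟨J ^ n, by positivity, ?_⟩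
  intro p _ k _ _ _ H _ _ ρ hρ hp
  have := Fintype.ofFinite H
  have hne : NeZero (Nat.card H : k) := ⟨by rw [Ne, CharP.cast_eq_zero_iff k p]; exact hp⟩
  have hss : IsSemisimpleRing (MonoidAlgebra k H) :=
    inferInstanceAs (IsSemisimpleModule (MonoidAlgebra k H) (MonoidAlgebra k H))
  set Φ := Representation.asAlgebraHom ρ with hΦ
  have hfinkH : Module.Finite k (MonoidAlgebra k H) := Module.Finite.of_basis (MonoidAlgebra.basis H k)
  have key : ∀ v : Fin n → k, ∃ A : Subgroup H, A.Normal ∧ A.index ≤ J ∧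
      ∀ x ∈ A, ∀ y ∈ A, ρ ((x * y)⁻¹ * (y * x)) v = v := by
    intro v
    let I : Ideal (MonoidAlgebra k H) :=
      { carrier := {a | Φ a v = 0}
        add_mem' := fun {a b} ha hb => by
          show Φ (a + b) v = 0
          rw [map_add, LinearMap.add_apply, ha, hb, add_zero]
        zero_mem' := by show Φ 0 v = 0; rw [map_zero, LinearMap.zero_apply]
        smul_mem' := fun c x hx => by
          show Φ (c * x) v = 0
          rw [map_mul, Module.End.mul_apply, hx, map_zero] }
    obtain ⟨f, hf, hIf⟩ := IsSemisimpleRing.ideal_eq_span_idempotent I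
    have hf' : f * f = f := hf
    have hfI : f ∈ I := by rw [hIf]; exact Ideal.mem_span_singleton_self f
    have hmul : ∀ a ∈ I, a * f = a := by
      intro a ha
      rw [hIf] at ha
      obtain ⟨b, rfl⟩ := Ideal.mem_span_singleton'.mp ha
      rw [mul_assoc, hf']
    have he : (1 - f) * (1 - f) = 1 - f := by
      rw [sub_mul, mul_sub, mul_sub, one_mul, one_mul, mul_one, hf']; abel
    have hΦe : Φ (1 - f) v = v := by
      rw [map_sub, LinearMap.sub_apply, map_one, Module.End.one_apply]
      have : Φ f v = 0 := hfI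
      rw [this, sub_zero]
    obtain ⟨r, hr, R, hR⟩ := exists_complex_rep p (1 - f) he
    have hrn : r ≤ n := by
      refine hr.trans ?_
      let ev : MonoidAlgebra k H →ₗ[k] (Fin n → k) := (LinearMap.applyₗ v) ∘ₗ Φ.toLinearMap
      have hinj : Function.Injective (ev ∘ₗ (LinearMap.range (LinearMap.mulRight k (1 - f))).subtype) := by
        rw [← LinearMap.ker_eq_bot, LinearMap.ker_eq_bot']
        rintro ⟨_, ⟨x, rfl⟩⟩ hy
        have hy' : Φ (x * (1 - f)) v = 0 := hy
        have h1 : x * (1 - f) ∈ I := hy'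
        have h2 := hmul _ h1
        apply Subtype.ext
        show x * (1 - f) = 0
        rw [← h2, mul_assoc, sub_mul, one_mul, hf', sub_self, mul_zero]
      have := LinearMap.finrank_le_finrank_of_injective hinj
      simpa using this
    obtain ⟨A, hA1, hA2, hA3⟩ := hJ' r hrn H R
    refine ⟨A, hA1, hA2, fun x hx y hy => ?_⟩
    have h1 : R ((x * y)⁻¹ * (y * x)) = 1 := by
      rw [map_mul, ← hA3 x hx y hy, ← map_mul, inv_mul_cancel, map_one]
    have h2 := hR _ h1 1
    rw [one_mul] at h2
    have h3 := congrArg (fun a => Φ a v) h2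
    simp only [map_mul, Module.End.mul_apply, hΦe] at h3
    rw [hΦ, Representation.asAlgebraHom_single_one] at h3
    exact h3
  choose A hA1 hA2 hA3 using key
  refine ⟨⨅ i : Fin n, A (Pi.single i 1), ?_, ?_⟩
  · refine (Subgroup.index_iInf_le _).trans ?_
    refine (Finset.prod_le_pow_card _ _ J fun i _ => hA2 _).trans ?_
    simp
  · intro x hx y hy
    rw [Subgroup.mem_iInf] at hx hy
    have h1 : ρ ((x * y)⁻¹ * (y * x)) = 1 := by
      apply (Pi.basisFun k (Fin n)).ext
      intro i
      rw [Pi.basisFun_apply]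
      exact hA3 _ x (hx i) y (hy i)
    have h2 : (x * y)⁻¹ * (y * x) = 1 := hρ (by rw [h1, map_one])
    exact (inv_mul_eq_one.mp h2)

end H29.BF
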