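import Cfsg.Agent.Lib.H29.BF7

/-! Brauer-Feit (S4732), part 8: the theorem. -/

set_option autoImplicit false

namespace H29.BF

universe u v w

/-- perfect fields -/
theorem brauer_feit_perfect (p n m : ℕ) : ∃ J : ℕ, ∀ (k : Type v) (G : Type u) [Field k] [Group G]
    [Finite G] [Fact p.Prime] [CharP k p] [PerfectRing k p] (ρ : Representation k G (Fin n → k)),
    Function.Injective ρ → (Nat.card G).factorization p = m →
    ∃ A : Subgroup G, A.Normal ∧ (∀ x ∈ A, ∀ y ∈ A, x * y = y * x) ∧ A.index ≤ J := by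
  classical
  obtain ⟨B, hB⟩ := exists_bound_ideal.{u, v} p n m
  obtain ⟨J1, hJ1, hJ1'⟩ := jordan_le.{u} B
  obtain ⟨J2, hJ2, hJ2'⟩ := pprime_case.{u, v} n
  refine ⟨(J1 * p ^ m) * J2 ^ 2, ?_⟩
  intro k G _ _ _ _ _ _ ρ hρ hm
  have hfk : Module.Finite k (MonoidAlgebra k G) := Module.Finite.of_basis (MonoidAlgebra.basis G k)
  obtain ⟨I, hI1, hI2, a, haI, ha⟩ := hB k G ρ hρ hm
  -- `I` is a left ideal
  have hI3 : ∀ z : MonoidAlgebra k G, ∀ y ∈ I, z * y ∈ I := by
    have := Fintype.ofFinite G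
    intro z y hy
    have hz : z = ∑ g : G, z.coeff g • MonoidAlgebra.single g (1 : k) := by
      ext g
      rw [MonoidAlgebra.coeff_sum, Finset.sum_apply', Finset.sum_eq_single g]
      · simp
      · intro b _ hb
        simp [MonoidAlgebra.coeff_single, Finsupp.single_eq_of_ne' hb]
      · intro h; exact absurd (Finset.mem_univ _) h
    rw [hz, Finset.sum_mul]
    refine Submodule.sum_mem _ fun g _ => ?_
    rw [smul_mul_assoc]
    exact Submodule.smul_mem _ _ (hI1 g y hy)
  obtain ⟨u, hu1, hu2⟩ := exists_idem (aug k G) a ha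
  obtain ⟨r, hr, R, hR⟩ := exists_complex_rep p (u * a) hu1
  have hrB : r ≤ B := by
    refine hr.trans ((Submodule.finrank_mono ?_).trans hI2)
    rintro _ ⟨x, rfl⟩
    show x * (u * a) ∈ I
    rw [← mul_assoc]
    exact hI3 _ _ haI
  -- the kernel of `R` is a `p'`-group
  have hker : ∀ h : G, orderOf h = p → R h ≠ 1 := by
    intro h hh hR1
    have h1 := hR h hR1 1
    rw [one_mul] at h1
    have h2 := aug_eq_zero hh h1
    rw [hu2] at h2
    exact one_ne_zero h2
  obtain ⟨A, hA1, hA2, hA3⟩ := hJ1' r hrB G R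
  -- powers
  have hpow : ∀ x ∈ A, ∀ y ∈ A, ∀ t : ℕ, R ((x * y) ^ t) = R (x ^ t) * R (y ^ t) := by
    intro x hx y hy t
    have hc : Commute (R x) (R y) := by
      show R x * R y = R y * R x
      rw [← map_mul, ← map_mul]; exact hA3 x hx y hy
    rw [map_pow, map_mul, hc.mul_pow, map_pow, map_pow]
  set N : ℕ := Nat.card G with hN
  have hNpos : 0 < N := Nat.card_pos
  set t : ℕ := N / p ^ m with ht
  have hNt : N = t * p ^ m := by
    rw [ht, ← hm]
    exact (Nat.div_mul_cancel (Nat.ordProj_dvd N p)).symm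
  have hpt : ¬ p ∣ t := by
    rw [ht, ← hm]
    exact Nat.not_dvd_ordCompl (Fact.out) hNpos.ne'
  let A1 : Subgroup G :=
    { carrier := {x | x ∈ A ∧ R (x ^ t) = 1}
      one_mem' := ⟨A.one_mem, by rw [one_pow, map_one]⟩
      mul_mem' := fun {x y} hx hy => ⟨A.mul_mem hx.1 hy.1, by
        rw [hpow x hx.1 y hy.1, hx.2, hy.2, one_mul]⟩
      inv_mem' := fun {x} hx => ⟨A.inv_mem hx.1, by
        have h1 : R (x⁻¹ ^ t) * R (x ^ t) = 1 := by rw [← map_mul, inv_pow, inv_mul_cancel, map_one]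
        rw [hx.2, mul_one] at h1
        exact h1⟩ }
  have hA1mem : ∀ x, x ∈ A1 ↔ x ∈ A ∧ R (x ^ t) = 1 := fun x => Iff.rfl
  have hA1le : A1 ≤ A := fun x hx => hx.1
  have hA1n : A1.Normal := by
    refine ⟨fun x hx g => ⟨hA1.conj_mem x hx.1 g, ?_⟩⟩
    rw [conj_pow, map_mul, map_mul, hx.2, mul_one, ← map_mul, mul_inv_cancel, map_one]
  -- `A1` is a `p'`-group
  have hA1p : ¬ p ∣ Nat.card A1 := by
    intro hdvd
    obtain ⟨⟨x, hx⟩, hxo⟩ := exists_prime_orderOf_dvd_card' p hdvd
    rw [Subgroup.orderOf_mk] at hxo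
    have hco : Nat.Coprime (orderOf x) t := by
      rw [hxo]; exact (Nat.Prime.coprime_iff_not_dvd (Fact.out)).mpr hpt
    have h1 : orderOf (x ^ t) = p := by rw [Nat.Coprime.orderOf_pow hco, hxo]
    exact hker _ h1 hx.2
  -- index of `A1` in `A`
  have hidx : A1.relIndex A ≤ p ^ m := by
    have hn : (A1.subgroupOf A).Normal := inferInstance
    have hpg : IsPGroup p (A ⧸ A1.subgroupOf A) := by
      intro q
      refine ⟨m, ?_⟩
      induction q using QuotientGroup.induction_on with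
      | H a =>
        rw [← QuotientGroup.mk_pow, QuotientGroup.eq_one_iff, Subgroup.mem_subgroupOf]
        refine ⟨(a ^ p ^ m).2, ?_⟩
        rw [Subgroup.coe_pow, ← pow_mul, mul_comm, ← hNt, hN, pow_card_eq_one', map_one]
    obtain ⟨j, hj⟩ := (IsPGroup.iff_card).mp hpg
    have h1 : A1.relIndex A = p ^ j := by
      rw [← hj]; rfl
    have h2 : p ^ j ∣ N := by
      rw [← h1]
      exact (Subgroup.relIndex_dvd_card _ _).trans (Subgroup.card_subgroup_dvd_card A)
    have h3 : j ≤ m := by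
      rw [← hm]
      exact (Nat.Prime.pow_dvd_iff_le_factorization (Fact.out) hNpos.ne').mp h2
    rw [h1]
    exact Nat.pow_le_pow_right (Nat.Prime.pos Fact.out) h3
  have hA1idx : A1.index ≤ J1 * p ^ m := by
    rw [← Subgroup.relIndex_mul_index hA1le, mul_comm]
    exact Nat.mul_le_mul hA2 hidx
  -- the `p'`-part
  obtain ⟨C, hC1, hC2⟩ := hJ2' p k A1 (ρ.comp A1.subtype) (hρ.comp A1.subtype_injective) hA1p
  obtain ⟨D, hD1, hD2, hD3⟩ := exists_char_abelian C hC2
  refine ⟨D.map A1.subtype, ?_, ?_, ?_⟩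
  · infer_instance
  · rintro _ ⟨x, hx, rfl⟩ _ ⟨y, hy, rfl⟩
    exact congrArg Subtype.val (hD2 x hx y hy)
  · have h1 : (D.map A1.subtype).index = D.index * A1.index := by
      rw [Subgroup.index_map_subtype]
    rw [h1, mul_comm]
    exact Nat.mul_le_mul hA1idx (hD3.trans (Nat.pow_le_pow_left hC1 2))

theorem brauer_feit (p n m : ℕ) : ∃ J : ℕ, ∀ (k : Type v) (G : Type u) [Field k] [Group G]
    [Finite G] [Fact p.Prime] [CharP k p] (ρ : Representation k G (Fin n → k)),
    Function.Injective ρ → (Nat.card G).factorization p = m →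
    ∃ A : Subgroup G, A.Normal ∧ (∀ x ∈ A, ∀ y ∈ A, x * y = y * x) ∧ A.index ≤ J := by
  classical
  obtain ⟨J, hJ⟩ := brauer_feit_perfect.{u, v} p n m
  refine ⟨J, ?_⟩
  intro F G _ _ _ _ _ ρ hρ hm
  have : CharP (AlgebraicClosure F) p :=
    charP_of_injective_algebraMap (algebraMap F (AlgebraicClosure F)).injective p
  have : ExpChar (AlgebraicClosure F) p := ExpChar.prime Fact.out
  have : PerfectRing (AlgebraicClosure F) p := inferInstance
  let φ : Matrix (Fin n) (Fin n) F →+* Matrix (Fin n) (Fin n) (AlgebraicClosure F) :=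
    (algebraMap F (AlgebraicClosure F)).mapMatrix
  have hφ : Function.Injective φ := by
    intro M N h
    ext i j
    exact (algebraMap F (AlgebraicClosure F)).injective (congrFun (congrFun h i) j)
  let ρ' : Representation (AlgebraicClosure F) G (Fin n → AlgebraicClosure F) :=
    ((Matrix.toLinAlgEquiv' : Matrix (Fin n) (Fin n) (AlgebraicClosure F) ≃ₐ[_] _) :
      Matrix (Fin n) (Fin n) (AlgebraicClosure F) →* _).comp
      ((φ : Matrix (Fin n) (Fin n) F →* _).comp
        (((LinearMap.toMatrixAlgEquiv' : _ ≃ₐ[F] Matrix (Fin n) (Fin n) F) : _ →* _).comp ρ))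
  have hρ' : Function.Injective ρ' := by
    intro g h hgh
    apply hρ
    apply (LinearMap.toMatrixAlgEquiv' : _ ≃ₐ[F] Matrix (Fin n) (Fin n) F).injective
    apply hφ
    exact (Matrix.toLinAlgEquiv' : Matrix (Fin n) (Fin n) (AlgebraicClosure F) ≃ₐ[_] _).injective hgh
  exact hJ (AlgebraicClosure F) G ρ' hρ' hm

end H29.BF
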